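import Cfsg.Agent.H18.Mi0

/-! Traces of elements of small order in `SL₃(F)`. -/

set_option autoImplicit false

namespace Cfsg.Agent.MiR

open Cfsg.Geo Matrix Cfsg.Agent.H18 Cfsg.Agent.H18.Mi

variable {F : Type*} [Field F]

lemma ch3 (A : Matrix (Fin 3) (Fin 3) F) :
    A * A * A = A.trace • (A * A) - A.adjugate.trace • A + A.det • (1 : Matrix (Fin 3) (Fin 3) F) := by
  ext i j
  fin_cases i <;> fin_cases j <;>
    simp [Matrix.mul_apply, Fin.sum_univ_three, adjugate_fin_three, trace_fin_three, det_fin_three] <;> ring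

lemma tr_sq3 (A : Matrix (Fin 3) (Fin 3) F) :
    (A * A).trace = A.trace ^ 2 - 2 * A.adjugate.trace := by
  simp [Matrix.mul_apply, Fin.sum_univ_three, adjugate_fin_three, trace_fin_three]; ring

lemma det_of_mem {g : GL (Fin 3) F} (hg : g ∈ specialLinear (Fin 3) F) : g.1.det = 1 := by
  have := congrArg Units.val (MonoidHom.mem_ker.1 hg)
  simpa using this

lemma mem_of_det {g : GL (Fin 3) F} (hg : g.1.det = 1) : g ∈ specialLinear (Fin 3) F :=
  MonoidHom.mem_ker.2 (Units.ext (by simpa using hg))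

lemma inv_eq_adj {g : GL (Fin 3) F} (hg : g ∈ specialLinear (Fin 3) F) : (g⁻¹).1 = g.1.adjugate := by
  have h : g.1 * g.1.adjugate = 1 := by rw [mul_adjugate, det_of_mem hg, one_smul]
  calc (g⁻¹).1 = (g⁻¹).1 * (g.1 * g.1.adjugate) := by rw [h, mul_one]
    _ = g.1.adjugate := by rw [← mul_assoc, Units.inv_mul, one_mul]

lemma ch {g : GL (Fin 3) F} (hg : g ∈ specialLinear (Fin 3) F) :
    g.1 * g.1 * g.1 = trc g • (g.1 * g.1) - trc g⁻¹ • g.1 + 1 := by
  rw [ch3, det_of_mem hg, one_smul, trc, trc, inv_eq_adj hg]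

lemma trc_one : trc (1 : GL (Fin 3) F) = 3 := by simp [trc]

lemma trc_sq {g : GL (Fin 3) F} (hg : g ∈ specialLinear (Fin 3) F) :
    trc (g ^ 2) = trc g ^ 2 - 2 * trc g⁻¹ := by
  rw [trc, trc, trc, inv_eq_adj hg, ← tr_sq3, pow_two, Units.val_mul]

lemma trc_rec {g : GL (Fin 3) F} (hg : g ∈ specialLinear (Fin 3) F) (k : ℕ) :
    trc (g ^ (k + 3)) = trc g * trc (g ^ (k + 2)) - trc g⁻¹ * trc (g ^ (k + 1)) + trc (g ^ k) := by
  have h : (g ^ (k + 3)).1 = (g ^ k).1 * (g.1 * g.1 * g.1) := by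
    simp only [pow_succ, mul_assoc, Units.val_mul]
  have h2 : (g ^ (k + 2)).1 = (g ^ k).1 * (g.1 * g.1) := by
    simp only [pow_succ, mul_assoc, Units.val_mul]
  have h1 : (g ^ (k + 1)).1 = (g ^ k).1 * g.1 := by
    simp only [pow_succ, Units.val_mul]
  have e := ch hg
  simp only [trc] at e ⊢
  rw [h, e, h2, h1]
  simp only [mul_add, mul_sub, mul_smul_comm, mul_one, trace_add, trace_sub, trace_smul, smul_eq_mul]

lemma trc_conj (h g : GL (Fin 3) F) : trc (h * g * h⁻¹) = trc g := by
  rw [trc, Units.val_mul, trace_mul_comm, ← Units.val_mul, ← mul_assoc, inv_mul_cancel, one_mul, trc]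

lemma t3 {g : GL (Fin 3) F} (hg : g ∈ specialLinear (Fin 3) F) {r : F} (h1 : trc g = r)
    (h2 : trc g⁻¹ = r) : trc (g ^ 3) = r ^ 3 - 3 * r ^ 2 + 3 := by
  have := trc_rec hg 0
  simp only [zero_add, pow_one, pow_zero, trc_one, trc_sq hg, h1, h2] at this
  rw [this]; ring

lemma t4 {g : GL (Fin 3) F} (hg : g ∈ specialLinear (Fin 3) F) {r : F} (h1 : trc g = r)
    (h2 : trc g⁻¹ = r) : trc (g ^ 4) = r ^ 4 - 4 * r ^ 3 + 2 * r ^ 2 + 4 * r := by
  have := trc_rec hg 1
  norm_num only [pow_one, t3 hg h1 h2, trc_sq hg, h1, h2] at this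
  rw [this]; ring

lemma t5 {g : GL (Fin 3) F} (hg : g ∈ specialLinear (Fin 3) F) {r : F} (h1 : trc g = r)
    (h2 : trc g⁻¹ = r) : trc (g ^ 5) = r ^ 5 - 5 * r ^ 4 + 5 * r ^ 3 + 5 * r ^ 2 - 5 * r := by
  have := trc_rec hg 2
  norm_num only [t4 hg h1 h2, t3 hg h1 h2, trc_sq hg, h1, h2] at this
  rw [this]; ring

/-- a real element with a scalar power: the power is trivial, or the trace is `3` -/
lemma pow_eq_one_of_real {g : GL (Fin 3) F} (hg : g ∈ specialLinear (Fin 3) F) {r : F}
    (h1 : trc g = r) (h2 : trc g⁻¹ = r) {m : ℕ} (hm : g ^ m ∈ scalars (Fin 3) F) :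
    g ^ m = 1 ∨ r = 3 := by
  obtain ⟨c, hc⟩ := (mem_scalars_iff _).1 hm
  set N : Matrix (Fin 3) (Fin 3) F := g.1 * g.1 + (1 - r) • g.1 + 1 with hN
  have e : g.1 * N = N := by
    have := ch hg
    rw [h1, h2] at this
    rw [hN, mul_add, mul_add, ← mul_assoc, this, mul_smul_comm, mul_one, sub_smul, sub_smul,
      one_smul, one_smul]
    abel
  have ek : ∀ k : ℕ, (g ^ k).1 * N = N := fun k => by
    induction k with
    | zero => simp
    | succ k ih => rw [pow_succ, Units.val_mul, mul_assoc, e, ih]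
  have := ek m
  rw [hc, smul_mul_assoc, one_mul] at this
  by_cases hc1 : (c : F) = 1
  · left; exact Units.ext (by rw [hc, hc1, one_smul]; rfl)
  · right
    have hN0 : N = 0 := by
      have h3 : ((c : F) - 1) • N = 0 := by rw [sub_smul, this, one_smul, sub_self]
      exact (smul_eq_zero.1 h3).resolve_left (sub_ne_zero.2 hc1)
    have ht := congrArg Matrix.trace hN0
    have hs := trc_sq hg
    rw [h1, h2, trc, pow_two, Units.val_mul] at hs
    rw [hN, trace_add, trace_add, trace_smul, hs, trace_one, trace_zero] at ht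
    rw [trc] at h1
    rw [h1] at ht
    simp only [smul_eq_mul, Fintype.card_fin, Nat.cast_ofNat] at ht
    linear_combination -ht

/-- `r` lies in the prime ring -/
def IsInt (r : F) : Prop := ∃ n : ℤ, r = n

lemma inv_eq_pow {G : Type*} [Group G] {g : G} {m : ℕ} (h : g ^ (m + 1) = 1) : g⁻¹ = g ^ m :=
  inv_eq_of_mul_eq_one_left (by rw [← pow_succ, h])

lemma int4 {g : GL (Fin 3) F} (hg : g ∈ specialLinear (Fin 3) F) {r : F}
    (h1 : trc g = r) (h2 : trc g⁻¹ = r) (hm : g ^ 4 ∈ scalars (Fin 3) F) : IsInt r := by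
  rcases pow_eq_one_of_real hg h1 h2 hm with h | h
  · have h3 := t3 hg h1 h2
    rw [← inv_eq_pow h, h2] at h3
    have : (r - 3) * ((r - 1) * (r + 1)) = 0 := by linear_combination -h3
    rcases mul_eq_zero.1 this with h | h
    · exact ⟨3, by push_cast; linear_combination h⟩
    rcases mul_eq_zero.1 h with h | h
    · exact ⟨1, by push_cast; linear_combination h⟩
    · exact ⟨-1, by push_cast; linear_combination h⟩
  · exact ⟨3, by push_cast; exact h⟩

lemma int6 {g : GL (Fin 3) F} (hg : g ∈ specialLinear (Fin 3) F) {r : F}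
    (h1 : trc g = r) (h2 : trc g⁻¹ = r) (hm : g ^ 6 ∈ scalars (Fin 3) F) : IsInt r := by
  rcases pow_eq_one_of_real hg h1 h2 hm with h | h
  · have h3 := t5 hg h1 h2
    rw [← inv_eq_pow h, h2] at h3
    have : (r - 3) * ((r - 1) * ((r + 1) * (r * (r - 2)))) = 0 := by linear_combination -h3
    rcases mul_eq_zero.1 this with h | h
    · exact ⟨3, by push_cast; linear_combination h⟩
    rcases mul_eq_zero.1 h with h | h
    · exact ⟨1, by push_cast; linear_combination h⟩
    rcases mul_eq_zero.1 h with h | h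
    · exact ⟨-1, by push_cast; linear_combination h⟩
    rcases mul_eq_zero.1 h with h | h
    · exact ⟨0, by push_cast; linear_combination h⟩
    · exact ⟨2, by push_cast; linear_combination h⟩
  · exact ⟨3, by push_cast; exact h⟩

lemma gold5 {g : GL (Fin 3) F} (hg : g ∈ specialLinear (Fin 3) F) {r : F}
    (h1 : trc g = r) (h2 : trc g⁻¹ = r) (hm : g ^ 5 ∈ scalars (Fin 3) F) :
    r = 3 ∨ r ^ 2 = r + 1 := by
  rcases pow_eq_one_of_real hg h1 h2 hm with h | h
  · have h3 := t3 hg h1 h2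
    have e : g ^ 3 = g⁻¹ ^ 2 := by
      rw [inv_pow]; exact eq_inv_of_mul_eq_one_left (by rw [← pow_add, h])
    rw [e, trc_sq (inv_mem hg), inv_inv, h1, h2] at h3
    have : (r - 3) * (r ^ 2 - r - 1) = 0 := by linear_combination -h3
    rcases mul_eq_zero.1 this with h | h
    · left; linear_combination h
    · right; linear_combination h
  · exact Or.inl h

/-- an element with traces `3, 3` is unipotent -/
lemma five_eq_zero {g : GL (Fin 3) F} (hg : g ∈ specialLinear (Fin 3) F)
    (h1 : trc g = 3) (h2 : trc g⁻¹ = 3) (hm : g ^ 5 ∈ scalars (Fin 3) F)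
    (hn : g ∉ scalars (Fin 3) F) : (5 : F) = 0 := by
  by_contra h5
  obtain ⟨c, hc⟩ := (mem_scalars_iff _).1 hm
  have e := ch hg
  rw [h1, h2] at e
  set n : Matrix (Fin 3) (Fin 3) F := g.1 - 1 with hn'
  have hg1 : g.1 = 1 + n := by rw [hn']; abel
  have n3 : n * n * n = 0 := by
    have : n * n * n = g.1 * g.1 * g.1 - ((3 : F) • (g.1 * g.1) - (3 : F) • g.1 + 1) := by
      rw [hn']
      simp only [mul_sub, sub_mul, mul_one, one_mul, show (3 : F) = 1 + 1 + 1 by norm_num, add_smul,
        one_smul]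
      abel
    rw [this, e, sub_self]
  have e5 : (g ^ 5).1 = 1 + (5 : F) • n + (10 : F) • (n * n) := by
    have a2 : g.1 * g.1 = 1 + (2 : F) • n + n * n := by
      rw [hg1]; simp only [mul_add, add_mul, mul_one, one_mul, two_smul]; abel
    have n3' : n * (n * n) = 0 := by rw [← mul_assoc, n3]
    have a4 : g.1 * g.1 * (g.1 * g.1) = 1 + (4 : F) • n + (6 : F) • (n * n) := by
      rw [a2]
      simp only [mul_add, add_mul, mul_one, one_mul, smul_mul_assoc, mul_smul_comm, n3, n3',
        mul_assoc n n (n * n), mul_zero, smul_zero, add_zero]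
      module
    have : (g ^ 5).1 = g.1 * g.1 * (g.1 * g.1) * g.1 := by
      simp only [pow_succ, pow_zero, one_mul, mul_assoc, Units.val_mul]
    rw [this, a4]
    conv_lhs => rw [hg1]
    simp only [mul_add, add_mul, mul_one, one_mul, smul_mul_assoc, n3, smul_zero, add_zero]
    module
  rw [hc] at e5
  have e6 : ((c : F) - 1) • (n * n) = 0 := by
    have := congrArg (fun X => X * (n * n)) e5
    simp only [add_mul, smul_mul_assoc, one_mul, ← mul_assoc, n3, zero_mul, smul_zero,
      add_zero] at this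
    rw [sub_smul, this, one_smul, sub_self]
  have e7 : ((c : F) - 1) • n = (5 : F) • (n * n) := by
    have := congrArg (fun X => X * n) e5
    simp only [add_mul, smul_mul_assoc, one_mul, n3, smul_zero, add_zero] at this
    rw [sub_smul, this, one_smul]; abel
  have nn : n * n = 0 := by
    by_cases hc1 : (c : F) - 1 = 0
    · rw [hc1, zero_smul] at e7
      exact (smul_eq_zero.1 e7.symm).resolve_left h5
    · exact (smul_eq_zero.1 e6).resolve_left hc1
  rw [nn, smul_zero, add_zero] at e5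
  rw [nn, smul_zero] at e7
  have n0 : n = 0 := by
    rcases smul_eq_zero.1 e7 with h | h
    · rw [sub_eq_zero.1 h, one_smul] at e5
      have : (5 : F) • n = 0 := by simpa using e5.symm
      exact (smul_eq_zero.1 this).resolve_left h5
    · exact h
  refine hn ((mem_scalars_iff _).2 ⟨1, ?_⟩)
  rw [hg1, n0, add_zero, Units.val_one, one_smul]

lemma seven {g h : GL (Fin 3) F} (hg : g ∈ specialLinear (Fin 3) F)
    (hc : h * g * h⁻¹ = g ^ 2) :
    (trc g⁻¹ = trc g ∧ IsInt (trc g)) ∨ (trc g ^ 2 + trc g + 2 = 0 ∧ trc g⁻¹ = -1 - trc g) := by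
  have e1 : trc g = trc g ^ 2 - 2 * trc g⁻¹ := by rw [← trc_sq hg, ← hc, trc_conj]
  have e2 : trc g⁻¹ = trc g⁻¹ ^ 2 - 2 * trc g := by
    have : h * g⁻¹ * h⁻¹ = g⁻¹ ^ 2 := by rw [inv_pow, ← hc]; group
    have e := trc_sq (inv_mem hg)
    rw [← this, trc_conj, inv_inv] at e
    exact e
  have : (trc g - trc g⁻¹) * (trc g + trc g⁻¹ + 1) = 0 := by linear_combination e2 - e1
  rcases mul_eq_zero.1 this with h1 | h1
  · left
    have h2 : trc g⁻¹ = trc g := by linear_combination -h1
    refine ⟨h2, ?_⟩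
    rw [h2] at e1
    have : trc g * (trc g - 3) = 0 := by linear_combination -e1
    rcases mul_eq_zero.1 this with h | h
    · exact ⟨0, by push_cast; exact h⟩
    · exact ⟨3, by push_cast; linear_combination h⟩
  · right
    exact ⟨by linear_combination -e1 + 2 * h1, by linear_combination h1⟩

end Cfsg.Agent.MiR
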