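import Mathlib

/-! Conjugacy facts in `A₆` and `A₇`. -/

set_option autoImplicit false

namespace Cfsg.Agent.MiR

open Equiv Equiv.Perm Subgroup

section
variable {α : Type*} [Fintype α] [DecidableEq α]

lemma alt_conj_of_odd {x y : alternatingGroup α}
    (h : ¬ centralizer {(x : Perm α)} ≤ alternatingGroup α) (hc : IsConj (x : Perm α) y) :
    IsConj x y := by
  obtain ⟨c, hc1, hc2⟩ := SetLike.not_le_iff_exists.1 h
  obtain ⟨g, hg⟩ := isConj_iff.1 hc
  by_cases hga : g ∈ alternatingGroup α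
  · exact isConj_iff.2 ⟨⟨g, hga⟩, Subtype.ext hg⟩
  · have hm : g * c ∈ alternatingGroup α := by
      rw [mem_alternatingGroup] at hc2 hga ⊢
      rw [map_mul, (Int.units_eq_one_or _).resolve_left hc2, (Int.units_eq_one_or _).resolve_left hga]
      rfl
    refine isConj_iff.2 ⟨⟨g * c, hm⟩, Subtype.ext ?_⟩
    have e : c * x * c⁻¹ = x := by
      rw [← mem_centralizer_singleton_iff.1 hc1 |>.symm, mul_inv_cancel_right]
    show g * c * x * (g * c)⁻¹ = y
    rw [← hg]
    conv_rhs => rw [← e]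
    group

lemma alt_conj_sq {x : alternatingGroup α} {k : ℕ} (hc : IsConj (x : Perm α) (x ^ k)) :
    IsConj x (x ^ (k * k)) := by
  obtain ⟨g, hg⟩ := isConj_iff.1 hc
  refine isConj_iff.2 ⟨⟨g * g, by rw [mem_alternatingGroup, map_mul, Int.units_mul_self]⟩,
    Subtype.ext ?_⟩
  show g * g * x * (g * g)⁻¹ = x ^ (k * k)
  rw [pow_mul]
  conv_rhs => rw [← hg, conj_pow, ← hg]
  group

lemma cyc_conj {x : Perm α} {n k : ℕ} (h : x.cycleType = {n}) (hk : k.Coprime n) :
    IsConj x (x ^ k) := by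
  have hx : x.IsCycle := card_cycleType_eq_one.1 (by rw [h]; rfl)
  have ho : orderOf x = n := by rw [← lcm_cycleType, h]; simp
  exact hx.isConj (hx.pow_iff.2 (ho ▸ hk)) (by rw [support_pow_coprime (ho ▸ hk)])

end

lemma mset (m : Multiset ℕ) (h2 : ∀ c ∈ m, 2 ≤ c) (hs : m.sum ≤ 7) (he : Even (m.sum + m.card)) :
    m = {7} ∨ ((m.lcm ∣ 4 ∨ m.lcm ∣ 6 ∨ m.lcm ∣ 5) ∧
      (m = {5} ∨ ¬ ((∀ c ∈ m, Odd c) ∧ 6 ≤ m.sum + 1 ∧ ∀ i, m.count i ≤ 1))) := by
  have hc : 2 * m.card ≤ m.sum := by
    have := Multiset.card_nsmul_le_sum h2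
    simpa [mul_comm] using this
  have : m.card = 0 ∨ m.card = 1 ∨ m.card = 2 ∨ m.card = 3 := by omega
  rcases this with h | h | h | h
  · obtain rfl := Multiset.card_eq_zero.1 h
    simp
  · obtain ⟨a, rfl⟩ := Multiset.card_eq_one.1 h
    have ha := h2 a (by simp)
    simp only [Multiset.sum_singleton, Multiset.card_singleton] at hs he
    have : a = 3 ∨ a = 5 ∨ a = 7 := by obtain ⟨k, hk⟩ := he; omega
    rcases this with rfl | rfl | rfl <;> simp
  · obtain ⟨a, b, rfl⟩ := Multiset.card_eq_two.1 h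
    have ha := h2 a (by simp)
    have hb := h2 b (by simp)
    simp only [Multiset.insert_eq_cons, Multiset.sum_cons, Multiset.sum_singleton] at hs
    have ha' : a ≤ 5 := by omega
    have hb' : b ≤ 5 := by omega
    right
    refine ⟨?_, Or.inr fun hh => ?_⟩
    · revert he
      interval_cases a <;> interval_cases b <;> first | omega | decide
    · have h1 := hh.1 a (by simp)
      have h2 := hh.1 b (by simp)
      have h3 := hh.2.2 a
      revert h1 h2 h3
      interval_cases a <;> interval_cases b <;> first | omega | decide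
  · obtain ⟨a, b, c, rfl⟩ := Multiset.card_eq_three.1 h
    have ha := h2 a (by simp)
    have hb := h2 b (by simp)
    have hc := h2 c (by simp)
    simp only [Multiset.insert_eq_cons, Multiset.sum_cons, Multiset.sum_singleton] at hs
    have ha' : a ≤ 3 := by omega
    have hb' : b ≤ 3 := by omega
    have hc' : c ≤ 3 := by omega
    right
    refine ⟨?_, Or.inr fun hh => ?_⟩
    · revert he
      interval_cases a <;> interval_cases b <;> interval_cases c <;> first | omega | decide
    · have h1 := hh.1 a (by simp)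
      have h2 := hh.1 b (by simp)
      have h3 := hh.1 c (by simp)
      revert h1 h2 h3
      interval_cases a <;> interval_cases b <;> interval_cases c <;> first | omega | decide

lemma even_alt {α : Type*} [Fintype α] [DecidableEq α] (x : alternatingGroup α) :
    Even ((x : Perm α).cycleType.sum + (x : Perm α).cycleType.card) := by
  have := mem_alternatingGroup.1 x.2
  rw [sign_of_cycleType] at this
  exact (neg_one_pow_eq_one_iff_even (by decide)).1 this

lemma pow_of_lcm {α : Type*} [Fintype α] [DecidableEq α] {x : alternatingGroup α} {n : ℕ}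
    (h : (x : Perm α).cycleType.lcm ∣ n) : x ^ n = 1 := by
  rw [lcm_cycleType, orderOf_dvd_iff_pow_eq_one] at h
  exact Subtype.ext h

theorem alt6_facts (x : alternatingGroup (Fin 6)) :
    IsConj x x⁻¹ ∧ (x ^ 4 = 1 ∨ x ^ 6 = 1 ∨ x ^ 5 = 1) := by
  have hs : (x : Perm (Fin 6)).cycleType.sum ≤ 6 := by simpa using sum_cycleType_le (x : Perm (Fin 6))
  rcases mset _ (fun c hc => two_le_of_mem_cycleType hc) (by omega) (even_alt x) with h | ⟨h1, h2⟩
  · rw [h] at hs; simp at hs
  refine ⟨?_, h1.imp pow_of_lcm (Or.imp pow_of_lcm pow_of_lcm)⟩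
  rcases h2 with h | h
  · have := alt_conj_sq (x := x) (k := 2) (cyc_conj h (by decide))
    have h5 : x ^ 5 = 1 := pow_of_lcm (by rw [h]; simp)
    rwa [inv_eq_of_mul_eq_one_left (a := x ^ (2 * 2)) (by rw [← pow_succ, h5])]
  · refine alt_conj_of_odd (fun hh => h ?_) (isConj_iff_cycleType_eq.2 (cycleType_inv _).symm)
    simpa using centralizer_le_alternating_iff.1 hh

theorem alt7_facts (x : alternatingGroup (Fin 7)) :
    (IsConj x x⁻¹ ∧ (x ^ 4 = 1 ∨ x ^ 6 = 1 ∨ x ^ 5 = 1)) ∨ (x ^ 7 = 1 ∧ IsConj x (x ^ 2)) := by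
  have hs : (x : Perm (Fin 7)).cycleType.sum ≤ 7 := by simpa using sum_cycleType_le (x : Perm (Fin 7))
  rcases mset _ (fun c hc => two_le_of_mem_cycleType hc) hs (even_alt x) with h | ⟨h1, h2⟩
  · right
    have h7 : x ^ 7 = 1 := pow_of_lcm (by rw [h]; simp)
    refine ⟨h7, ?_⟩
    have := alt_conj_sq (x := x) (k := 3) (cyc_conj h (by decide))
    rwa [show 3 * 3 = 7 + 2 from rfl, pow_add, h7, one_mul] at this
  left
  refine ⟨?_, h1.imp pow_of_lcm (Or.imp pow_of_lcm pow_of_lcm)⟩
  refine alt_conj_of_odd (fun hh => ?_) (isConj_iff_cycleType_eq.2 (cycleType_inv _).symm)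
  have := centralizer_le_alternating_iff.1 hh
  rcases h2 with h | h
  · have h3 := this.2.1
    rw [h] at h3; simp at h3
  · refine h ⟨this.1, ?_, this.2.2⟩
    have h3 := this.2.1
    rw [Fintype.card_fin] at h3; omega

lemma alt6_five : ∃ x : alternatingGroup (Fin 6), x ≠ 1 ∧ x ^ 5 = 1 :=
  ⟨⟨swap 0 1 * swap 1 2 * swap 2 3 * swap 3 4, by simp [mem_alternatingGroup]⟩,
    fun h => absurd (congrArg (fun y : alternatingGroup (Fin 6) => (y : Perm (Fin 6)) 0) h) (by decide),
    Subtype.ext (by decide)⟩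

end Cfsg.Agent.MiR
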