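import Cfsg.Agent.MiR.A

/-! Frobenius action on the traces; invariant forms. -/

set_option autoImplicit false

namespace Cfsg.Agent.MiR

open Cfsg.Geo Matrix Cfsg.Agent.H18 Cfsg.Agent.H18.Mi Polynomial

variable {F : Type*} [Field F]

section Frob
variable {p : ℕ} [Fact p.Prime] [CharP F p]

lemma IsInt.frob {r : F} (h : IsInt r) : r ^ p = r := by
  obtain ⟨n, rfl⟩ := h
  exact map_intCast (frobenius F p) n

lemma eq_of_mod {q : ℕ} (hq : q.Prime) (h : p % q = 0) : p = q :=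
  ((Nat.prime_dvd_prime_iff_eq hq Fact.out).1 (Nat.dvd_of_mod_eq_zero h)).symm

lemma cast_zero {q : ℕ} (hq : q.Prime) (h : p % q = 0) : (q : F) = 0 := by
  rw [← eq_of_mod hq h]; exact CharP.cast_eq_zero F p

lemma mod_of_cast {q : ℕ} (hq : q.Prime) (h : (q : F) = 0) : p = q :=
  (Nat.prime_dvd_prime_iff_eq Fact.out hq).1 ((CharP.cast_eq_zero_iff F p q).1 h)

lemma cube_one {η : F} (h : η ^ 3 = 1) (hp : p % 3 = 0) : η = 1 := by
  have h3 : (3 : F) = 0 := by exact_mod_cast cast_zero (F := F) Nat.prime_three hp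
  have : (η - 1) ^ 3 = 0 := by linear_combination h + (η - η ^ 2) * h3
  exact sub_eq_zero.1 (pow_eq_zero_iff (by norm_num) |>.1 this)

omit [Fact p.Prime] [CharP F p] in
lemma cube_pow {η : F} (h : η ^ 3 = 1) : η ^ p = η ^ (p % 3) := pow_eq_pow_mod p h

lemma gold_five {r : F} (h : r ^ 2 = r + 1) (h5 : (5 : F) = 0) : IsInt r := by
  have : (r - 3) ^ 2 = 0 := by linear_combination h + (2 - r) * h5
  exact ⟨3, by push_cast; exact sub_eq_zero.1 (pow_eq_zero_iff (by norm_num) |>.1 this)⟩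

lemma sev_seven {s : F} (h : s ^ 2 + s + 2 = 0) (h7 : (7 : F) = 0) : s = 3 := by
  have : (s - 3) ^ 2 = 0 := by linear_combination h + (1 - s) * h7
  exact sub_eq_zero.1 (pow_eq_zero_iff (by norm_num) |>.1 this)

lemma gold_frob {r : F} (h : r ^ 2 = r + 1) :
    (p % 5 = 0 ∨ p % 5 = 1 ∨ p % 5 = 4 → r ^ p = r) ∧ (p % 5 = 2 ∨ p % 5 = 3 → r ^ p = 1 - r) := by
  let K := AlgebraicClosure F
  let ι := algebraMap F K
  have hι : Function.Injective ι := ι.injective
  haveI : CharP K p := charP_of_injective_algebraMap hι p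
  have hR : ι r ^ 2 = ι r + 1 := by rw [← map_pow, h, map_add, map_one]
  obtain ⟨l, hl, e⟩ : ∃ l : K, l ^ 4 + l ^ 3 + l ^ 2 + l + 1 = 0 ∧ ι r = -(l ^ 2 + l ^ 3) := by
    obtain ⟨l, hl⟩ := IsAlgClosed.exists_root (X ^ 4 + X ^ 3 + X ^ 2 + X + 1 : K[X])
      (by rw [show (X ^ 4 + X ^ 3 + X ^ 2 + X + 1 : K[X]).degree = 4 by compute_degree!]; decide)
    have hl' : l ^ 4 + l ^ 3 + l ^ 2 + l + 1 = 0 := by simpa using hl
    have : (ι r + l ^ 2 + l ^ 3) * (ι r + l + l ^ 4) = 0 := by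
      linear_combination hR + (ι r + l ^ 3 - l + 1) * hl'
    rcases mul_eq_zero.1 this with h1 | h1
    · exact ⟨l, hl', by linear_combination h1⟩
    · exact ⟨l ^ 2, by linear_combination (l ^ 4 - l ^ 3 + l ^ 2 - l + 1) * hl',
        by linear_combination h1 + (l ^ 2 - l) * hl'⟩
  have h5 : l ^ 5 = 1 := by linear_combination (l - 1) * hl
  have ep : ι (r ^ p) = -(l ^ (2 * p % 5) + l ^ (3 * p % 5)) := by
    rw [map_pow, e, ← frobenius_def, map_neg, map_add, frobenius_def, frobenius_def, ← pow_mul,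
      ← pow_mul, ← pow_eq_pow_mod _ h5, ← pow_eq_pow_mod _ h5]
  refine ⟨fun hp => ?_, fun hp => hι ?_⟩
  · rcases hp with hp | hp | hp
    · exact (gold_five h (by exact_mod_cast cast_zero (F := F) Nat.prime_five hp)).frob
    · refine hι ?_
      rw [ep, e, show 2 * p % 5 = 2 by omega, show 3 * p % 5 = 3 by omega]
    · refine hι ?_
      rw [ep, e, show 2 * p % 5 = 3 by omega, show 3 * p % 5 = 2 by omega, add_comm]
  · rw [ep, map_sub, map_one, e]
    rcases hp with hp | hp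
    · rw [show 2 * p % 5 = 4 by omega, show 3 * p % 5 = 1 by omega]; linear_combination -hl
    · rw [show 2 * p % 5 = 1 by omega, show 3 * p % 5 = 4 by omega]; linear_combination -hl

lemma sev_frob {s : F} (h : s ^ 2 + s + 2 = 0) :
    (p % 7 = 1 ∨ p % 7 = 2 ∨ p % 7 = 4 → s ^ p = s) ∧
      (p % 7 = 0 ∨ p % 7 = 3 ∨ p % 7 = 5 ∨ p % 7 = 6 → s ^ p = -1 - s) := by
  let K := AlgebraicClosure F
  let ι := algebraMap F K
  have hι : Function.Injective ι := ι.injective
  haveI : CharP K p := charP_of_injective_algebraMap hι p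
  have hR : ι s ^ 2 + ι s + 2 = 0 := by
    have := congrArg ι h
    simpa [map_ofNat] using this
  obtain ⟨l, hl, e⟩ : ∃ l : K, l ^ 6 + l ^ 5 + l ^ 4 + l ^ 3 + l ^ 2 + l + 1 = 0 ∧
      ι s = l + l ^ 2 + l ^ 4 := by
    obtain ⟨l, hl⟩ := IsAlgClosed.exists_root (X ^ 6 + X ^ 5 + X ^ 4 + X ^ 3 + X ^ 2 + X + 1 : K[X])
      (by rw [show (X ^ 6 + X ^ 5 + X ^ 4 + X ^ 3 + X ^ 2 + X + 1 : K[X]).degree = 6 by
        compute_degree!]; decide)
    have hl' : l ^ 6 + l ^ 5 + l ^ 4 + l ^ 3 + l ^ 2 + l + 1 = 0 := by simpa using hl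
    have : (ι s - (l + l ^ 2 + l ^ 4)) * (ι s - (l ^ 3 + l ^ 5 + l ^ 6)) = 0 := by
      linear_combination hR + (-ι s + l ^ 4 + 2 * l - 2) * hl'
    rcases mul_eq_zero.1 this with h1 | h1
    · exact ⟨l, hl', by linear_combination h1⟩
    · exact ⟨l ^ 3, by
        linear_combination (l ^ 12 - l ^ 11 + l ^ 9 - l ^ 8 + l ^ 6 - l ^ 4 + l ^ 3 - l + 1) * hl',
        by linear_combination h1 - (l ^ 6 - l ^ 5) * hl'⟩
  have h7 : l ^ 7 = 1 := by linear_combination (l - 1) * hl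
  have ep : ι (s ^ p) = l ^ (p % 7) + l ^ (2 * p % 7) + l ^ (4 * p % 7) := by
    rw [map_pow, e, ← frobenius_def, map_add, map_add, frobenius_def, frobenius_def, frobenius_def,
      ← pow_mul, ← pow_mul, ← pow_eq_pow_mod _ h7, ← pow_eq_pow_mod _ h7, ← pow_eq_pow_mod _ h7]
  refine ⟨fun hp => hι ?_, fun hp => ?_⟩
  · rw [ep, e]
    rcases hp with hp | hp | hp
    · rw [hp, show 2 * p % 7 = 2 by omega, show 4 * p % 7 = 4 by omega]; ring
    · rw [hp, show 2 * p % 7 = 4 by omega, show 4 * p % 7 = 1 by omega]; ring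
    · rw [hp, show 2 * p % 7 = 1 by omega, show 4 * p % 7 = 2 by omega]; ring
  · rcases hp with hp | hp
    · have h7 : (7 : F) = 0 := by exact_mod_cast cast_zero (F := F) (by norm_num : Nat.Prime 7) hp
      have := sev_seven h h7
      rw [IsInt.frob ⟨3, by push_cast; exact this⟩, this]
      linear_combination h7
    refine hι ?_
    rw [ep, map_sub, map_neg, map_one, e]
    rcases hp with hp | hp | hp
    · rw [hp, show 2 * p % 7 = 6 by omega, show 4 * p % 7 = 5 by omega]; linear_combination hl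
    · rw [hp, show 2 * p % 7 = 3 by omega, show 4 * p % 7 = 6 by omega]; linear_combination hl
    · rw [hp, show 2 * p % 7 = 5 by omega, show 4 * p % 7 = 3 by omega]; linear_combination hl

lemma card_le_of_frob [Fintype F] {k : ℕ} (hk : 0 < k) (h : ∀ x : F, x ^ p ^ k = x) :
    ∃ n, 0 < n ∧ n ≤ k ∧ Fintype.card F = p ^ n := by
  obtain ⟨n, hp, hn⟩ := FiniteField.card F p
  refine ⟨n, n.pos, ?_, hn⟩
  have h1 : 1 < p ^ k := Nat.one_lt_pow hk.ne' hp.one_lt
  have : Fintype.card F - 1 ∣ p ^ k - 1 := by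
    rw [← FiniteField.forall_pow_eq_one_iff]
    intro x
    have e := h x
    refine Units.ext (mul_right_cancel₀ x.ne_zero ?_)
    rw [Units.val_pow_eq_pow_val, ← pow_succ, Nat.sub_add_cancel h1.le, e, Units.val_one, one_mul]
  have h2 := Nat.le_of_dvd (by omega) this
  have h3 : p ^ (n : ℕ) ≤ p ^ k := by
    have := Fintype.card_pos (α := F)
    omega
  exact (Nat.pow_le_pow_iff_right hp.one_lt).1 h3

end Frob

/-- not realisable over a proper subfield -/
def NoSub (P : Subgroup (GL (Fin 3) F)) : Prop :=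
  ∀ F₀ : Subfield F, F₀ ≠ ⊤ → ¬ RealisableOver F₀ (matrixSet P)

/-- no invariant quadratic or symplectic form -/
def NoBil (P : Subgroup (GL (Fin 3) F)) : Prop :=
  (¬ ∃ Q : (Fin 3 → F) → F, IsNondegenerateQuadraticForm Q ∧ FixesQuadForm (matrixSet P) Q) ∧
    ¬ ∃ f : (Fin 3 → F) → (Fin 3 → F) → F, IsSymplecticForm f ∧ FixesForm (matrixSet P) f

variable [Finite F] {P : Subgroup (GL (Fin 3) F)}

lemma fix_all (hP : Core P) (hs : NoSub P) (σ : F →+* F) (h : ∀ g ∈ P, σ (trc g) = trc g) (x : F) :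
    σ x = x := by
  have : σ.eqLocusField (RingHom.id F) = ⊤ := by
    by_contra hne
    exact hs _ hne (realisableOver_of_trace hP.span _ fun g hg => h g hg)
  have hx : x ∈ σ.eqLocusField (RingHom.id F) := this ▸ Subfield.mem_top x
  exact hx

lemma real_false (hP : Core P) (hb : NoBil P) (h : ∀ g ∈ P, trc g⁻¹ = trc g) : False := by
  obtain ⟨ε, f, hf, hi⟩ := exists_hform_of_trace (σ := RingHom.id F) (fun _ => rfl) hP.span
    fun g hg => (h g hg).symm
  have hfix : FixesForm (matrixSet P) f := by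
    rintro _ ⟨g, hg, rfl⟩ u v; exact hi g hg u v
  by_cases h2 : (2 : F) = 0
  · have h1 : ε = 1 := by
      rcases hf.eps_id with h | h
      · exact h
      · rw [h]; linear_combination -h2
    subst h1
    refine hb.2 ⟨f, hf.symplectic (hf.alt_of_irr h2 (by simp) hP.irr fun g hg => ?_), hfix⟩
    exact ⟨1, fun u v => by rw [hi g hg]; simp⟩
  · rcases hf.eps_id with h | h
    · subst h
      refine hb.1 ⟨_, hf.quad h2, ?_⟩
      rintro _ ⟨g, hg, rfl⟩ v; exact hi g hg v v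
    · subst h
      exact hb.2 ⟨f, hf.symplectic (hf.alt_of_two_ne_zero h2), hfix⟩

lemma unitary_of_trace (hP : Core P) (hs : NoSub P) (hb : NoBil P) (σ : F →+* F)
    (h : ∀ g ∈ P, σ (trc g) = trc g⁻¹) :
    ∃ (τ : F ≃+* F) (f : (Fin 3 → F) → (Fin 3 → F) → F), IsUnitaryForm τ f ∧
      FixesForm (matrixSet P) f := by
  have hσ : ∀ x, σ (σ x) = x := fix_all hP hs (σ.comp σ) fun g hg => by
    rw [RingHom.comp_apply, h g hg, h _ (inv_mem hg), inv_inv]
  have hne : σ ≠ RingHom.id F := fun e => real_false hP hb fun g hg => by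
    rw [← h g hg, e]; rfl
  obtain ⟨ε, f, hf, hi⟩ := exists_hform_of_trace hσ hP.span h
  obtain ⟨c, -, hc⟩ := hf.exists_one hne
  refine ⟨_, _, hc.unitary hne, ?_⟩
  rintro _ ⟨g, hg, rfl⟩ u v
  simp only [hi g hg]

end Cfsg.Agent.MiR
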