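import Mathlib

/-! Conjugacy facts in `SL₃(2)`. -/

set_option autoImplicit false

namespace Cfsg.Agent.MiR

open Matrix Subgroup
open scoped MatrixGroups

abbrev M2 := Matrix (Fin 3) (Fin 3) (ZMod 2)

def mk9 (a b c d e f g h i : ZMod 2) : M2 := !![a, b, c; d, e, f; g, h, i]

def ofN (n : ℕ) : M2 := Matrix.of fun i j => if n.testBit (3 * i.1 + j.1) then 1 else 0

def cd (y : M2) : ℕ := (y 0 0).val + 2 * (y 0 1).val + 4 * (y 0 2).val + 8 * (y 1 0).val +
  16 * (y 1 1).val + 32 * (y 1 2).val + 64 * (y 2 0).val + 128 * (y 2 1).val + 256 * (y 2 2).val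

def wit (W : ℕ) (y : M2) : M2 := ofN (W >>> (9 * cd y))

def d3 (A : M2) : ZMod 2 := A 0 0 * A 1 1 * A 2 2 - A 0 0 * A 1 2 * A 2 1 - A 0 1 * A 1 0 * A 2 2 +
  A 0 1 * A 1 2 * A 2 0 + A 0 2 * A 1 0 * A 2 1 - A 0 2 * A 1 1 * A 2 0

lemma d3_eq (A : M2) : d3 A = A.det := (det_fin_three A).symm

lemma all9 {p : M2 → Prop} (h : ∀ a b c d e f g h i, p (mk9 a b c d e f g h i)) (y : M2) : p y := by
  rw [eta_fin_three y]; exact h _ _ _ _ _ _ _ _ _

def W1 : ℕ := 66774224238238022820954006483262189335141094588422495026390885233988046738941407210607969417077337748775595786090560168723121690092346392049739164536051580872975411354757390907142022830947377042335434808016470677265641072651819800565622984960679333980908748380775903992567040105460301607526831759543451575067618435793346222574757090392427049880371651694454584502160914602812560220045682829273783138029013127935498751897288473831536900831705217111348807101752683795416150207650521074787797007044996951902577439140255316341684196306699430886987229072921714473221667193579041437981931927227025992864993947641092088640091736106341004740613569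94490176832343336938128115612868859299391133720637947543781384876614069802975474357041171856121392250329529981774633879088065845917650784986048034583439521430723355471109987660790820121460702541500674790094573408060730593562498974655154175814513459874703958949351580162877260796957124913676093301274007366928920302517122781224404983602037689238477266646278409773116265554751088997059731973706445505013946213104096425755776255873529143976131194496716179307559590435525178392285492511408596963377862513183169792504125273494561360697342791449428576614314011631693074847574292039885584649996674628326301949441435621942155469205762912486113118663883963271761371786249533856339320760585768536125376609978188665608377228559646720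

def W2 : ℕ := 34896062565999780838626472648116474897531134472315647689333050303600753375626018702367823339592412428834403313434516985214705997078456931460304466785461896498712683034695463154803636143095512199580585411534307983001784851661657943828104074050839579423599777376922046424310388545547549172785799617566407176745676421804408993389044965894041324213816895357594165371780343019608744161986058681317158430068712569457265543594204372617682083984239168647350977933202505990427700486559203644228782680463136565903853516316732101950863425472639541328746682974592745846829684046316176249004175283056508775921641579105748393659598042154909411637915810684516830047849423918680535845587177627241028570792804279586882132578302047250812767647366819630221951250014003566967724613994682772097151401336982763436127429296472299879251319150560453273760202824488330342201258134350943078907289664562484080184877071931340832893979074045983761217535792330556811974937409788703290371670519627575860683311475627144165246909364928747551913646251471138771166448806802659924274376267799360451506769467506650211163398249233428059265942306995644164321487772537269433084775904684752006598730720388736715735756366024607374912361199511466929213043461588442905546669341193812041367737321975522357229347284097049473215605529849918591891477028952240998965758388598553821074537603955223953408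

def W3 : ℕ := 219550099048818395965291920758648668819732664817144491956790428437427993679369775919009917365939986463560457735179372639593668372982513085272041925733821686809746397173116653100976247074877089619341887579793478475657805968281465749937259517677144644928898243506555317707076176659951421001766369385310583565682815021974881501900835115863896023655804701204941518797289844128318667620504803431155708047855172605615527942318193459580179424967781209629104865491927963232201813941330725497312874839055051065422214551620362199781207620787139404876573181273907321017483604800891471924977504889601109697628297719390409662532295850020027652907430737782545745334266573210927594515586327243210875197888259811200416033446127117118622950906082598061752614144746899711121261712434069578641678092297326189831506228852001407103745826453405816820396863383958513783291103602990249431448078147070900671177621470452805208074467462209052731479527360078258304615312731136028823566593419818563629926219124362566277246818005060371425048098604304898903430317144306313171886723424187623345275647331168442881694236672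

def ma : M2 := !![1, 1, 0; 0, 1, 0; 0, 0, 1]
def mb : M2 := !![0, 0, 1; 1, 0, 0; 0, 1, 0]

lemma c1 : ∀ y : M2, d3 y = 1 → d3 (wit W1 y) = 1 ∧
    ((y * wit W1 y * y = wit W1 y ∧ (y ^ 4 = 1 ∨ y ^ 3 = 1)) ∨
      (y ^ 7 = 1 ∧ wit W1 y * y = y * y * wit W1 y)) :=
  all9 (by decide +kernel)

lemma c2 : ∀ y : M2, d3 y = 1 → y ^ 3 = 1 → y ≠ 1 → d3 (wit W2 y) = 1 ∧
    wit W2 y * mb = y * wit W2 y :=
  all9 (by decide +kernel)

lemma c3 : ∀ y : M2, d3 y = 1 → y ^ 2 = 1 → (y * mb) ^ 7 = 1 → d3 (wit W3 y) = 1 ∧
    wit W3 y * ma = y * wit W3 y ∧
      (wit W3 y * mb = mb * wit W3 y ∨ wit W3 y = mb * wit W3 y * mb) :=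
  all9 (by decide +kernel)

def sa : SL(3, ZMod 2) := ⟨ma, by rw [← d3_eq]; decide⟩
def sb : SL(3, ZMod 2) := ⟨mb, by rw [← d3_eq]; decide⟩

theorem l32_facts (x : SL(3, ZMod 2)) :
    (IsConj x x⁻¹ ∧ (x ^ 4 = 1 ∨ x ^ 6 = 1)) ∨ (x ^ 7 = 1 ∧ IsConj x (x ^ 2)) := by
  obtain ⟨h1, h2⟩ := c1 x.1 (by rw [d3_eq, x.2])
  set h : SL(3, ZMod 2) := ⟨wit W1 x.1, by rw [← d3_eq, h1]⟩ with hh
  rcases h2 with ⟨h2, h3⟩ | ⟨h2, h3⟩
  · have e : x * h * x = h := Subtype.ext h2
    refine Or.inl ⟨isConj_iff.2 ⟨h, ?_⟩, h3.imp (fun h => Subtype.ext h) fun h3 => ?_⟩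
    · calc h * x * h⁻¹ = x⁻¹ * (x * h * x) * h⁻¹ := by group
        _ = x⁻¹ := by rw [e]; group
    · have : x ^ 3 = 1 := Subtype.ext h3
      rw [show 6 = 3 * 2 from rfl, pow_mul, this, one_pow]
  · have e : h * x = x * x * h := Subtype.ext h3
    exact Or.inr ⟨Subtype.ext h2, isConj_iff.2 ⟨h, by rw [e, pow_two]; group⟩⟩

theorem l32_R1 (y : SL(3, ZMod 2)) (h3 : y ^ 3 = 1) (hn : y ≠ 1) : ∃ x, x * sb * x⁻¹ = y := by
  obtain ⟨h1, h2⟩ := c2 y.1 (by rw [d3_eq, y.2]) (congrArg Subtype.val h3)
    (fun h => hn (Subtype.ext h))
  set h : SL(3, ZMod 2) := ⟨wit W2 y.1, by rw [← d3_eq, h1]⟩ with hh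
  have e : h * sb = y * h := Subtype.ext h2
  exact ⟨h, by rw [e]; group⟩

theorem l32_R2 (y : SL(3, ZMod 2)) (h2 : y ^ 2 = 1) (h7 : (y * sb) ^ 7 = 1) :
    ∃ x, x * sa * x⁻¹ = y ∧ (x * sb * x⁻¹ = sb ∨ x * sb⁻¹ * x⁻¹ = sb) := by
  obtain ⟨h1, h2, h3⟩ := c3 y.1 (by rw [d3_eq, y.2]) (congrArg Subtype.val h2)
    (congrArg Subtype.val h7)
  set h : SL(3, ZMod 2) := ⟨wit W3 y.1, by rw [← d3_eq, h1]⟩ with hh
  have e : h * sa = y * h := Subtype.ext h2
  refine ⟨h, by rw [e]; group, h3.imp (fun h3 => ?_) fun h3 => ?_⟩
  · have e : h * sb = sb * h := Subtype.ext h3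
    rw [e]; group
  · have e : h = sb * h * sb := Subtype.ext h3
    calc h * sb⁻¹ * h⁻¹ = sb * h * sb * sb⁻¹ * h⁻¹ := by rw [← e]
      _ = sb := by group

lemma sa2 : sa ^ 2 = 1 := Subtype.ext (by decide)
lemma sa1 : sa ≠ 1 := fun h => absurd (congrArg Subtype.val h) (by decide)
lemma sb3 : sb ^ 3 = 1 := Subtype.ext (by decide)
lemma sb1 : sb ≠ 1 := fun h => absurd (congrArg Subtype.val h) (by decide)
lemma sab7 : (sa * sb) ^ 7 = 1 := Subtype.ext (by decide)
lemma sab1 : sa * sb ≠ 1 := fun h => absurd (congrArg Subtype.val h) (by decide)
lemma sc4 : (sa * sb * sa * sb * sb) ^ 4 = 1 := Subtype.ext (by decide)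
lemma sc2 : (sa * sb * sa * sb * sb) ^ 2 ≠ 1 := fun h => absurd (congrArg Subtype.val h) (by decide)

lemma card_S : Nat.card SL(3, ZMod 2) = 168 := by
  have : Function.Bijective
      (SpecialLinearGroup.toGL : SL(3, ZMod 2) → GL (Fin 3) (ZMod 2)) :=
    ⟨SpecialLinearGroup.toGL_injective, fun g => ⟨⟨g.1, by
      have h := (Matrix.isUnit_iff_isUnit_det _).1 g.isUnit
      exact (by decide : ∀ r : ZMod 2, r ≠ 0 → r = 1) _ h.ne_zero⟩, Units.ext rfl⟩⟩
  rw [Nat.card_eq_of_bijective _ this, card_GL_field]
  simp [Fin.prod_univ_three]

lemma center_S : center SL(3, ZMod 2) = ⊥ := eq_bot_iff.2 fun A hA => by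
  obtain ⟨r, h1, h2⟩ := Matrix.SpecialLinearGroup.mem_center_iff.1 hA
  obtain rfl : r = 1 := (by decide : ∀ r : ZMod 2, r ^ 3 = 1 → r = 1) r h1
  exact Subtype.ext (h2.symm.trans (map_one _))

/-- the projective group is the linear group -/
noncomputable def pslEquiv : ProjectiveSpecialLinearGroup (Fin 3) (ZMod 2) ≃* SL(3, ZMod 2) :=
  (QuotientGroup.quotientMulEquivOfEq center_S).trans QuotientGroup.quotientBot

lemma gen_S [IsSimpleGroup SL(3, ZMod 2)] : Subgroup.closure {sa, sb} = ⊤ := by
  set K := Subgroup.closure {sa, sb} with hK
  have ha : sa ∈ K := Subgroup.subset_closure (by simp)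
  have hb : sb ∈ K := Subgroup.subset_closure (by simp)
  haveI : Fact (Nat.Prime 2) := ⟨by norm_num⟩
  haveI : Fact (Nat.Prime 3) := ⟨by norm_num⟩
  haveI : Fact (Nat.Prime 7) := ⟨by norm_num⟩
  have h3 : 3 ∣ Nat.card K := (orderOf_eq_prime sb3 sb1).symm.dvd.trans (K.orderOf_dvd_natCard hb)
  have h7 : 7 ∣ Nat.card K := 
    (orderOf_eq_prime sab7 sab1).symm.dvd.trans (K.orderOf_dvd_natCard (mul_mem ha hb))
  have h4 : 4 ∣ Nat.card K := by
    have := orderOf_eq_prime_pow (p := 2) (n := 1) (x := sa * sb * sa * sb * sb) sc2 sc4
    exact (show 4 = orderOf (sa * sb * sa * sb * sb) from this.symm).dvd.trans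
      (K.orderOf_dvd_natCard (mul_mem (mul_mem (mul_mem (mul_mem ha hb) ha) hb) hb))
  have hi := K.index_mul_card
  rw [card_S] at hi
  have h84 : 84 ∣ Nat.card K :=
    Nat.Coprime.mul_dvd_of_dvd_of_dvd (m := 12) (n := 7) (by norm_num)
      (Nat.Coprime.mul_dvd_of_dvd_of_dvd (m := 3) (n := 4) (by norm_num) h3 h4) h7
  obtain ⟨k, hk⟩ := h84
  rw [hk] at hi
  have h2 : K.index * k = 2 := by nlinarith
  have : K.index = 1 ∨ K.index = 2 := (Nat.dvd_prime Nat.prime_two).1 (Dvd.intro _ h2)
  rcases this with h | h
  · exact index_eq_one.1 h
  · haveI := normal_of_index_eq_two h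
    rcases IsSimpleGroup.eq_bot_or_eq_top_of_normal K inferInstance with h1 | h1
    · rw [h1] at ha; exact absurd ha sa1
    · exact h1

end Cfsg.Agent.MiR
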