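import Cfsg.Agent.MiR.C
import Cfsg.Agent.MiR.B
import Cfsg.Agent.MiR.L

/-! Lifting conjugacy data from the projective image. -/

set_option autoImplicit false

namespace Cfsg.Agent.MiR

open Cfsg.Geo Matrix Cfsg.Agent.H18 Cfsg.Agent.H18.Mi
open scoped MatrixGroups

variable {F : Type*} [Field F] {P : Subgroup (GL (Fin 3) F)}

structure Lift (P : Subgroup (GL (Fin 3) F)) {Q : Type*} [Group Q] (π : P →* Q) : Prop where
  le : P ≤ specialLinear (Fin 3) F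
  surj : Function.Surjective π
  ker : ∀ x : P, π x = 1 ↔ (x : GL (Fin 3) F) ∈ scalars (Fin 3) F

lemma exists_lift (hP : P ≤ specialLinear (Fin 3) F) {Q : Type*} [Group Q] (e : PQ P ≃* Q) :
    ∃ π : P →* Q, Lift P π :=
  ⟨e.toMonoidHom.comp (QuotientGroup.mk' _), hP,
    e.surjective.comp (QuotientGroup.mk'_surjective _), fun x => by
      simp only [MonoidHom.comp_apply, MulEquiv.coe_toMonoidHom, EmbeddingLike.map_eq_one_iff,
        QuotientGroup.mk'_apply, QuotientGroup.eq_one_iff, Subgroup.mem_subgroupOf]⟩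

lemma scalar_comm {z : GL (Fin 3) F} (hz : z ∈ scalars (Fin 3) F) (g : GL (Fin 3) F) :
    z * g = g * z := by
  obtain ⟨c, hc⟩ := (mem_scalars_iff _).1 hz
  exact Units.ext (by rw [Units.val_mul, Units.val_mul, hc]; simp)

lemma scalar_spec {z : GL (Fin 3) F} (hz : z ∈ scalars (Fin 3) F)
    (h1 : z ∈ specialLinear (Fin 3) F) : ∃ η : F, η ^ 3 = 1 ∧ z.1 = η • 1 ∧ (z⁻¹).1 = η ^ 2 • 1 := by
  obtain ⟨c, hc⟩ := (mem_scalars_iff _).1 hz
  have h3 : (c : F) ^ 3 = 1 := by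
    have := det_of_mem h1
    rw [hc, det_smul] at this
    simpa using this
  refine ⟨c, h3, hc, ?_⟩
  calc (z⁻¹).1 = (z⁻¹).1 * (((c : F) ^ 2) • z.1) := by
        rw [hc, smul_smul, ← pow_succ, h3, one_smul, mul_one]
    _ = _ := by rw [mul_smul_comm, Units.inv_mul]

lemma scalar_cube {z : GL (Fin 3) F} (hz : z ∈ scalars (Fin 3) F)
    (h1 : z ∈ specialLinear (Fin 3) F) : z ^ 3 = 1 := by
  obtain ⟨η, h3, hc, -⟩ := scalar_spec hz h1
  exact Units.ext (by rw [Units.val_pow_eq_pow_val, hc, smul_pow, h3, one_pow, one_smul]; rfl)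

lemma trc_smul {z g : GL (Fin 3) F} {η : F} (hz : z.1 = η • 1) : trc (z * g) = η * trc g := by
  simp [trc, hz]

lemma trc_smul' {z g : GL (Fin 3) F} {η : F} (hz : (z⁻¹).1 = η • 1) :
    trc (z * g)⁻¹ = η * trc g⁻¹ := by
  rw [_root_.mul_inv_rev, trc, Units.val_mul, hz]; simp [trc]

def Nice (x : GL (Fin 3) F) : Prop := trc x⁻¹ = trc x ∧ IsInt (trc x)
def Gold (x : GL (Fin 3) F) : Prop := trc x⁻¹ = trc x ∧ trc x ^ 2 = trc x + 1
def Sev (x : GL (Fin 3) F) : Prop := trc x ^ 2 + trc x + 2 = 0 ∧ trc x⁻¹ = -1 - trc x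

/-- `g` is a scalar multiple inside `P` of an element with property `T` -/
def Upto (P : Subgroup (GL (Fin 3) F)) (T : GL (Fin 3) F → Prop) (g : GL (Fin 3) F) : Prop :=
  ∃ z ∈ P, ∃ x ∈ P, z ∈ scalars (Fin 3) F ∧ g = z * x ∧ T x

variable {Q : Type*} [Group Q] {π : P →* Q}

lemma Lift.real (hL : Lift P π) (g : P) (h : IsConj (π g) (π g)⁻¹) :
    ∃ z x : P, z.1 ∈ scalars (Fin 3) F ∧ g = z * x ∧ π x = π g ∧ trc x.1⁻¹ = trc x.1 := by
  obtain ⟨c, hc⟩ := isConj_iff.1 h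
  obtain ⟨k, rfl⟩ := hL.surj c
  have hz : π (k * g * k⁻¹ * g) = 1 := by simp [hc]
  have hs := (hL.ker _).1 hz
  set z := k * g * k⁻¹ * g with hzz
  obtain ⟨η, h3, e1, e2⟩ := scalar_spec hs (hL.le z.2)
  refine ⟨z⁻¹, z * g, inv_mem hs, by group, by rw [map_mul, hz, one_mul], ?_⟩
  have e : trc g.1 = η * trc g.1⁻¹ := by
    rw [← trc_smul e1, ← trc_conj k.1 g.1, hzz]
    congr 1
    simp
  rw [Subgroup.coe_mul, trc_smul e1, trc_smul' e2, e]; ring

lemma Lift.upto (hL : Lift P π) (g : P) (h : IsConj (π g) (π g)⁻¹)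
    (hm : π g ^ 4 = 1 ∨ π g ^ 6 = 1) : Upto P Nice g := by
  obtain ⟨z, x, hz, e, e1, e2⟩ := hL.real g h
  refine ⟨z, z.2, x, x.2, hz, congrArg Subtype.val e, e2, ?_⟩
  rcases hm with hm | hm
  · exact int4 (hL.le x.2) rfl e2 ((hL.ker (x ^ 4)).1 (by rw [map_pow, e1, hm]))
  · exact int6 (hL.le x.2) rfl e2 ((hL.ker (x ^ 6)).1 (by rw [map_pow, e1, hm]))

lemma Lift.upto5 (hL : Lift P π) (g : P) (h : IsConj (π g) (π g)⁻¹)
    (hm : π g ^ 4 = 1 ∨ π g ^ 6 = 1 ∨ π g ^ 5 = 1) : Upto P (fun x => Nice x ∨ Gold x) g := by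
  rcases or_assoc.2 hm with hm | hm
  · obtain ⟨z, hz, x, hx, h1, h2, h3⟩ := hL.upto g h hm
    exact ⟨z, hz, x, hx, h1, h2, Or.inl h3⟩
  obtain ⟨z, x, hz, e, e1, e2⟩ := hL.real g h
  refine ⟨z, z.2, x, x.2, hz, congrArg Subtype.val e, ?_⟩
  rcases gold5 (hL.le x.2) rfl e2 ((hL.ker (x ^ 5)).1 (by rw [map_pow, e1, hm])) with h | h
  · exact Or.inl ⟨e2, 3, by push_cast; exact h⟩
  · exact Or.inr ⟨e2, h⟩

lemma Lift.gold (hL : Lift P π) {y : Q} (h : IsConj y y⁻¹) (h1 : y ≠ 1) (hm : y ^ 5 = 1) :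
    (5 : F) = 0 ∨ ∃ x ∈ P, Gold x := by
  obtain ⟨g, rfl⟩ := hL.surj y
  obtain ⟨z, x, hz, e, e1, e2⟩ := hL.real g h
  have h5 := (hL.ker (x ^ 5)).1 (by rw [map_pow, e1, hm])
  rcases gold5 (hL.le x.2) rfl e2 h5 with h | h
  · exact Or.inl (five_eq_zero (hL.le x.2) h (e2.trans h) h5 fun hs =>
      h1 (e1.symm.trans ((hL.ker x).2 hs)))
  · exact Or.inr ⟨x, x.2, e2, h⟩

lemma Lift.upto7 (hL : Lift P π) (g : P) (h7 : π g ^ 7 = 1) (h : IsConj (π g) (π g ^ 2)) :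
    Upto P (fun x => Nice x ∨ Sev x) g := by
  obtain ⟨c, hc⟩ := isConj_iff.1 h
  obtain ⟨k, rfl⟩ := hL.surj c
  have hz : π (k * g * k⁻¹ * (g ^ 2)⁻¹) = 1 := by simp [hc]
  have hs := (hL.ker _).1 hz
  set z := k * g * k⁻¹ * (g ^ 2)⁻¹ with hzz
  refine ⟨z⁻¹, inv_mem z.2, z * g, mul_mem z.2 g.2, inv_mem hs, by group,
    seven (h := k.1) (hL.le (mul_mem z.2 g.2)) ?_⟩
  have e : k.1 * g.1 * k.1⁻¹ = z.1 * g.1 ^ 2 := by rw [hzz]; simp
  calc k.1 * (z.1 * g.1) * k.1⁻¹ = z.1 * (k.1 * g.1 * k.1⁻¹) := by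
        rw [← mul_assoc, ← scalar_comm hs]; group
    _ = (z.1 * g.1) ^ 2 := by
        rw [e, (show Commute z.1 g.1 from scalar_comm hs _).mul_pow, pow_two z.1, mul_assoc]

theorem a6_upto {π : P →* alternatingGroup (Fin 6)} (hL : Lift P π) {g : GL (Fin 3) F} (hg : g ∈ P) :
    Upto P (fun x => Nice x ∨ Gold x) g :=
  hL.upto5 ⟨g, hg⟩ (alt6_facts _).1 (alt6_facts _).2

theorem a6_gold {π : P →* alternatingGroup (Fin 6)} (hL : Lift P π) :
    (5 : F) = 0 ∨ ∃ x ∈ P, Gold x := by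
  obtain ⟨y, h1, h5⟩ := alt6_five
  exact hL.gold (alt6_facts y).1 h1 h5

theorem a7_upto {π : P →* alternatingGroup (Fin 7)} (hL : Lift P π) (h5 : (5 : F) = 0)
    {g : GL (Fin 3) F} (hg : g ∈ P) : Upto P (fun x => Nice x ∨ Sev x) g := by
  rcases alt7_facts (π ⟨g, hg⟩) with h | h
  · obtain ⟨z, hz, x, hx, h1, h2, h3⟩ := hL.upto5 ⟨g, hg⟩ h.1 h.2
    exact ⟨z, hz, x, hx, h1, h2, Or.inl (h3.elim id fun h => ⟨h.1, gold_five h.2 h5⟩)⟩
  · exact hL.upto7 ⟨g, hg⟩ h.1 h.2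

/-- a perfect central extension of `L₃(2)` by a group of exponent three is trivial -/
theorem l32_inj {π : P →* SL(3, ZMod 2)} (hL : Lift P π) (hp : ⁅P, P⁆ = P) :
    Function.Injective π := by
  rw [injective_iff_map_eq_one]
  intro z hz
  have hs := (hL.ker z).1 hz
  let S : Subgroup P := (Subgroup.zpowers sb).comap π
  haveI : Fact (Nat.Prime 3) := ⟨by norm_num⟩
  have hi : S.index = 56 := by
    rw [Subgroup.index_comap_of_surjective _ hL.surj]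
    have := (Subgroup.zpowers sb).index_mul_card
    rw [Nat.card_zpowers, orderOf_eq_prime sb3 sb1, card_S] at this
    omega
  haveI : S.FiniteIndex := ⟨by omega⟩
  obtain ⟨b, hb⟩ := hL.surj sb
  have hc : ∀ (x : P), π x = 1 → ∀ y : P, Commute x y := fun x hx y =>
    Subtype.ext (scalar_comm ((hL.ker x).1 hx) _)
  have hcomm : ∀ x y : S, x * y = y * x := by
    rintro ⟨x, i, hx⟩ ⟨y, j, hy⟩
    have h1 : π (x * (b ^ i)⁻¹) = 1 := by simp [hb, ← hx]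
    have h2 : π (y * (b ^ j)⁻¹) = 1 := by simp [hb, ← hy]
    have : Commute (x * (b ^ i)⁻¹ * b ^ i) (y * (b ^ j)⁻¹ * b ^ j) :=
      (hc _ h1 _).mul_left ((hc _ h2 _).symm.mul_right (Commute.zpow_zpow_self b i j))
    exact Subtype.ext (by simpa using this.eq)
  letI : CommGroup S := { (inferInstance : Group S) with mul_comm := hcomm }
  have ht := MonoidHom.transfer_eq_pow (MonoidHom.id S) z fun k g _ => by
    rw [mul_assoc, ((hc z hz g).pow_left k).eq, inv_mul_cancel_left]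
  have hcm : commutator P = ⊤ := by
    apply Subgroup.map_injective P.subtype_injective
    rw [commutator_def, Subgroup.map_commutator, ← MonoidHom.range_eq_map, Subgroup.range_subtype, hp]
  have h1 : MonoidHom.transfer (MonoidHom.id S) z = 1 :=
    Abelianization.commutator_subset_ker _ (hcm ▸ Subgroup.mem_top z)
  rw [h1] at ht
  have h56 : z ^ 56 = 1 := by
    have := congrArg Subtype.val ht
    simpa [hi] using this.symm
  have h3 : z ^ 3 = 1 := Subtype.ext (scalar_cube hs (hL.le z.2))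
  calc z = z ^ 57 * (z ^ 56)⁻¹ := by group
    _ = 1 := by rw [h56, show 57 = 3 * 19 from rfl, pow_mul, h3]; simp

theorem l32_all {π : P →* SL(3, ZMod 2)} (hL : Lift P π) (hp : ⁅P, P⁆ = P)
    {g : GL (Fin 3) F} (hg : g ∈ P) : Nice g ∨ Sev g := by
  have : Upto P (fun x => Nice x ∨ Sev x) g := by
    rcases l32_facts (π ⟨g, hg⟩) with h | h
    · obtain ⟨z, hz, x, hx, h1, h2, h3⟩ := hL.upto ⟨g, hg⟩ h.1 h.2
      exact ⟨z, hz, x, hx, h1, h2, Or.inl h3⟩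
    · exact hL.upto7 ⟨g, hg⟩ h.1 h.2
  obtain ⟨z, hz, x, hx, h1, h2, h3⟩ := this
  have : (⟨z, hz⟩ : P) = 1 := l32_inj hL hp (by rw [(hL.ker _).2 h1, map_one])
  rw [h2, show z = 1 from congrArg Subtype.val this, one_mul]
  exact h3

end Cfsg.Agent.MiR
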