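import Cfsg.Agent.MiR.D

/-! The fields of definition in the linear case. -/

set_option autoImplicit false

namespace Cfsg.Agent.MiR

open Cfsg.Geo Matrix Cfsg.Agent.H18 Cfsg.Agent.H18.Mi
open scoped MatrixGroups

variable {F : Type*} [Field F] {P : Subgroup (GL (Fin 3) F)}

lemma Upto.spec {T : GL (Fin 3) F → Prop} {g : GL (Fin 3) F} (hP : P ≤ specialLinear (Fin 3) F)
    (h : Upto P T g) : ∃ η : F, ∃ x ∈ P, η ^ 3 = 1 ∧ T x ∧ trc g = η * trc x ∧
      trc g⁻¹ = η ^ 2 * trc x⁻¹ := by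
  obtain ⟨z, hz, x, hx, h1, rfl, h3⟩ := h
  obtain ⟨η, e, e1, e2⟩ := scalar_spec h1 (hP hz)
  exact ⟨η, x, hx, e, h3, trc_smul e1, trc_smul' e2⟩

section
variable {p : ℕ} [Fact p.Prime] [CharP F p]

lemma cube_sq {η : F} (h : η ^ 3 = 1) : (η ^ p) ^ p = η := by
  have : p % 3 = 0 ∨ p % 3 = 1 ∨ p % 3 = 2 := by omega
  rcases this with hp | hp | hp
  · rw [cube_one h hp]; simp
  · rw [cube_pow h, hp, pow_one, cube_pow h, hp, pow_one]
  · rw [cube_pow h, hp, ← pow_mul, mul_comm, pow_mul, cube_pow h, hp]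
    linear_combination η * h

lemma frob_sub (x y : F) : (x - y) ^ p = x ^ p - y ^ p := sub_pow_char x y

lemma Nice.sq {x : GL (Fin 3) F} (h : Nice x) : (trc x ^ p) ^ p = trc x := by
  rw [h.2.frob, h.2.frob]

lemma Gold.sq {x : GL (Fin 3) F} (h : Gold x) : (trc x ^ p) ^ p = trc x := by
  obtain ⟨h1, h2⟩ := gold_frob (p := p) h.2
  by_cases hp : p % 5 = 2 ∨ p % 5 = 3
  · rw [h2 hp, frob_sub, h2 hp]; simp
  · rw [h1 (by omega), h1 (by omega)]

lemma Sev.sq {x : GL (Fin 3) F} (h : Sev x) : (trc x ^ p) ^ p = trc x := by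
  obtain ⟨h1, h2⟩ := sev_frob (p := p) h.1
  by_cases hp : p % 7 = 1 ∨ p % 7 = 2 ∨ p % 7 = 4
  · rw [h1 hp, h1 hp]
  · rw [h2 (by omega), frob_sub, h2 (by omega), IsInt.frob (r := -1) ⟨-1, by simp⟩]; simp

variable [Fintype F]

lemma card_one (hP : Core P) (hs : NoSub P) (h : ∀ g ∈ P, trc g ^ p = trc g) :
    Fintype.card F = p := by
  obtain ⟨n, h0, h1, h2⟩ := card_le_of_frob (F := F) (p := p) one_pos fun x => by
    rw [pow_one]; exact fix_all hP hs (frobenius F p) h x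
  obtain rfl : n = 1 := by omega
  rw [h2, pow_one]

lemma card_two (hP : Core P) (hs : NoSub P) (h : ∀ g ∈ P, (trc g ^ p) ^ p = trc g) :
    Fintype.card F = p ∨ Fintype.card F = p ^ 2 := by
  obtain ⟨n, h0, h1, h2⟩ := card_le_of_frob (F := F) (p := p) two_pos fun x => by
    rw [pow_two, pow_mul]; exact fix_all hP hs ((frobenius F p).comp (frobenius F p)) h x
  have : n = 1 ∨ n = 2 := by omega
  rcases this with rfl | rfl
  · left; rw [h2, pow_one]
  · right; exact h2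

lemma card_two' (hP : Core P) (hs : NoSub P)
    (h : ∀ g ∈ P, Upto P (fun x => Nice x ∨ Gold x ∨ Sev x) g) :
    Fintype.card F = p ∨ Fintype.card F = p ^ 2 :=
  card_two hP hs fun g hg => by
    obtain ⟨η, x, -, h3, hx, e, -⟩ := (h g hg).spec hP.le
    rw [e, mul_pow, mul_pow, cube_sq h3]
    rcases hx with hx | hx | hx
    · rw [hx.sq]
    · rw [hx.sq]
    · rw [hx.sq]

omit [Fintype F] in
lemma gold_mod {r : F} (h : r ^ 2 = r + 1) (hr : r ^ p = r) (h5 : p ≠ 5) :
    p % 5 = 1 ∨ p % 5 = 4 := by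
  by_contra hn
  by_cases h0 : p % 5 = 0
  · exact h5 (eq_of_mod Nat.prime_five h0)
  have := (gold_frob (p := p) h).2 (by omega)
  rw [hr] at this
  refine h5 (mod_of_cast (F := F) Nat.prime_five ?_)
  push_cast
  linear_combination (2 * r - 1) * this - 4 * h

end

lemma Upto.mono {T T' : GL (Fin 3) F → Prop} {g : GL (Fin 3) F} (h : Upto P T g)
    (hT : ∀ x, T x → T' x) : Upto P T' g := by
  obtain ⟨z, hz, x, hx, h1, h2, h3⟩ := h
  exact ⟨z, hz, x, hx, h1, h2, hT x h3⟩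

lemma ng_real {x : GL (Fin 3) F} (h : Nice x ∨ Gold x) : trc x⁻¹ = trc x := h.elim And.left And.left

theorem lin_main [Fintype F] {H : Subgroup (GL (Fin 3) F)} (hH : H < specialLinear (Fin 3) F)
    (hc : IsResidualCore H P) (hb : NoBil P)
    (hu : ¬ ∃ (σ : F ≃+* F) (f : (Fin 3 → F) → (Fin 3 → F) → F), IsUnitaryForm σ f ∧
      FixesForm (matrixSet P) f) (hM : MConcl P) :
    ∃ p : ℕ, p.Prime ∧ CharP F p ∧
    ((Nonempty (PQ P ≃* ProjectiveSpecialLinearGroup (Fin 3) (ZMod 2)) ∧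
        Fintype.card F = p ∧ p ≠ 2 ∧ (p % 7 = 1 ∨ p % 7 = 2 ∨ p % 7 = 4)) ∨
     (Nonempty (PQ P ≃* alternatingGroup (Fin 6)) ∧
        ((Fintype.card F = p ∧ (p % 15 = 1 ∨ p % 15 = 4)) ∨
          (Fintype.card F = p ^ 2 ∧ p ≠ 3 ∧ (p % 5 = 2 ∨ p % 5 = 3))))) := by
  obtain ⟨p, hchar⟩ := CharP.exists F
  have hp := CharP.char_is_prime F p
  haveI : Fact p.Prime := ⟨hp⟩
  have hP : Core P := Core.of_residual hc hH.le
  have hs : NoSub P := hc.no_subfield
  have hR : ¬ ∀ g ∈ P, trc g⁻¹ = trc g := real_false hP hb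
  have hU : ¬ ∀ g ∈ P, trc g ^ p = trc g⁻¹ := fun h =>
    hu (unitary_of_trace hP hs hb (frobenius F p) h)
  refine ⟨p, hp, hchar, ?_⟩
  rcases hM with h | ⟨F₀, h1, h2⟩ | ⟨σ, f, h1, h2, -⟩ | h | ⟨⟨e⟩⟩ | ⟨⟨e⟩⟩ | ⟨h5, ⟨e⟩⟩
  · exact absurd (h.trans hc.le) hH.not_ge
  · exact absurd h2 (hs F₀ h1)
  · exact absurd ⟨σ, f, h1, h2⟩ hu
  · exact absurd h hR
  · obtain ⟨π, hL⟩ := exists_lift hP.le (e.trans pslEquiv)
    have ha := fun g (hg : g ∈ P) => l32_all hL hP.perfect hg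
    have h7 : p % 7 = 1 ∨ p % 7 = 2 ∨ p % 7 = 4 := by
      by_contra hn
      refine hU fun g hg => ?_
      rcases ha g hg with h | h
      · rw [h.2.frob, h.1]
      · rw [(sev_frob (p := p) h.1).2 (by omega), h.2]
    have hcard : Fintype.card F = p := card_one hP hs fun g hg => by
      rcases ha g hg with h | h
      · exact h.2.frob
      · exact (sev_frob (p := p) h.1).1 h7
    refine Or.inl ⟨⟨e⟩, hcard, ?_, h7⟩
    rintro rfl
    have c1 : Nat.card P = 168 :=
      (Nat.card_eq_of_bijective π ⟨l32_inj hL hP.perfect, hL.surj⟩).trans card_S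
    have c2 : Nat.card (GL (Fin 3) F) = 168 := by
      rw [card_GL_field, hcard]; simp [Fin.prod_univ_three]
    have : P = ⊤ := Subgroup.eq_top_of_card_eq _ (c1.trans c2.symm)
    exact hH.not_ge (le_top.trans (this.ge.trans hc.le))
  · obtain ⟨π, hL⟩ := exists_lift hP.le e
    have ha := fun g (hg : g ∈ P) => (a6_upto hL hg).spec hP.le
    have h1 : ¬ ∀ η : F, η ^ 3 = 1 → η = 1 := fun hh => hR fun g hg => by
      obtain ⟨η, x, -, h3, hx, e1, e2⟩ := ha g hg
      rw [e1, e2, hh η h3, ng_real hx]; simp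
    have h3 : p % 3 ≠ 0 := fun h0 => h1 fun η h => cube_one h h0
    refine Or.inr ⟨⟨e⟩, ?_⟩
    rcases card_two' (p := p) hP hs (fun g hg => (a6_upto hL hg).mono fun x h =>
      h.imp id Or.inl) with hcard | hcard
    · have hx : ∀ x : F, x ^ p = x := fun x => by rw [← hcard]; exact FiniteField.pow_card x
      have h31 : p % 3 = 1 := by
        by_contra hn
        refine h1 fun η h => ?_
        have := hx η
        rw [cube_pow h, show p % 3 = 2 by omega] at this
        linear_combination η ^ 2 * this - (η - 1) * h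
      have h5 : p ≠ 5 := by omega
      rcases a6_gold hL with h | ⟨x, -, h⟩
      · exact absurd (mod_of_cast (F := F) Nat.prime_five (by exact_mod_cast h)) h5
      have := gold_mod h.2 (hx _) h5
      exact Or.inl ⟨hcard, by omega⟩
    · refine Or.inr ⟨hcard, by omega, ?_⟩
      by_contra hn
      have hr : ∀ x : GL (Fin 3) F, Nice x ∨ Gold x → trc x ^ p = trc x := fun x h =>
        h.elim (fun h => h.2.frob) fun h => (gold_frob (p := p) h.2).1 (by omega)
      by_cases h31 : p % 3 = 1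
      · have := card_one (p := p) hP hs fun g hg => by
          obtain ⟨η, x, -, h3, hx, e1, e2⟩ := ha g hg
          rw [e1, mul_pow, cube_pow h3, h31, pow_one, hr x hx]
        have h2 := hp.two_le
        nlinarith
      · refine hU fun g hg => ?_
        obtain ⟨η, x, -, h3', hx, e1, e2⟩ := ha g hg
        rw [e1, e2, mul_pow, cube_pow h3', show p % 3 = 2 by omega, hr x hx, ng_real hx]
  · exfalso
    obtain ⟨π, hL⟩ := exists_lift hP.le e
    obtain rfl : p = 5 := mod_of_cast (F := F) Nat.prime_five (by exact_mod_cast h5)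
    refine hU fun g hg => ?_
    obtain ⟨η, x, -, h3, hx, e1, e2⟩ := (a7_upto hL h5 hg).spec hP.le
    rw [e1, e2, mul_pow, cube_pow h3]
    rcases hx with h | h
    · rw [h.2.frob, h.1]
    · rw [(sev_frob (p := 5) h.1).2 (by omega), h.2]

end Cfsg.Agent.MiR
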