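import Cfsg.Agent.MiR.E

/-! A normal form for an involution and an element of order three generating irreducibly. -/

set_option autoImplicit false

namespace Cfsg.Agent.MiR

open Cfsg.Geo Matrix Cfsg.Agent.H18 Cfsg.Agent.H18.Mi
open scoped MatrixGroups

variable {F : Type*} [Field F] {P : Subgroup (GL (Fin 3) F)}

lemma adj3 (A : Matrix (Fin 3) (Fin 3) F) :
    A.adjugate = A * A - A.trace • A + A.adjugate.trace • (1 : Matrix (Fin 3) (Fin 3) F) := by
  ext i j
  fin_cases i <;> fin_cases j <;>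
    simp [Matrix.mul_apply, Fin.sum_univ_three, adjugate_fin_three, trace_fin_three] <;> ring

lemma minors {N : Matrix (Fin 3) (Fin 3) F} (h : N.adjugate = 0) (i j k l : Fin 3) :
    N j l * N i k = N j k * N i l := by
  have m := fun i j => congrFun (congrFun h i) j
  have m00 := m 0 0; have m01 := m 0 1; have m02 := m 0 2
  have m10 := m 1 0; have m11 := m 1 1; have m12 := m 1 2
  have m20 := m 2 0; have m21 := m 2 1; have m22 := m 2 2
  simp only [adjugate_fin_three, of_apply, cons_val', cons_val_zero, cons_val_one, cons_val,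
    cons_val_fin_one, Matrix.zero_apply] at m00 m01 m02 m10 m11 m12 m20 m21 m22
  fin_cases i <;> fin_cases j <;> fin_cases k <;> fin_cases l <;>
    simp only [Fin.zero_eta, Fin.mk_one, Fin.reduceFinMk, Fin.isValue] <;>
    first
      | ring1
      | linear_combination m00 | linear_combination -m00
      | linear_combination m01 | linear_combination -m01
      | linear_combination m02 | linear_combination -m02
      | linear_combination m10 | linear_combination -m10
      | linear_combination m11 | linear_combination -m11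
      | linear_combination m12 | linear_combination -m12
      | linear_combination m20 | linear_combination -m20
      | linear_combination m21 | linear_combination -m21
      | linear_combination m22 | linear_combination -m22

lemma rank_one {a : Matrix (Fin 3) (Fin 3) F} (h : a * a = 1) (ht : a.trace = -1) (h2 : (2 : F) ≠ 0) :
    ∃ u φ : Fin 3 → F, u ≠ 0 ∧ ∀ x, a *ᵥ x = (φ ⬝ᵥ x) • u - x := by
  set N := a + 1 with hN
  have e1 : N * N = (2 : F) • N := by
    rw [hN, add_mul, mul_add, mul_add, h, two_smul]; simp only [mul_one, one_mul]; abel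
  have e2 : N.trace = 2 := by rw [hN, trace_add, ht, trace_one]; simp; norm_num
  have e3 : N.adjugate.trace = 0 := by
    have := tr_sq3 N
    rw [e1, trace_smul, e2, smul_eq_mul] at this
    exact (mul_eq_zero.1 (by linear_combination this : 2 * N.adjugate.trace = 0)).resolve_left h2
  have e4 : N.adjugate = 0 := by rw [adj3, e1, e2, e3]; simp
  have e5 : N ≠ 0 := fun h0 => h2 (by rw [← e2, h0, trace_zero])
  obtain ⟨i, k, hik⟩ : ∃ i k, N i k ≠ 0 := by
    by_contra hh
    push Not at hh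
    exact e5 (Matrix.ext hh)
  refine ⟨fun j => N j k, fun l => N i l / N i k, fun h0 => hik (congrFun h0 i), fun x => ?_⟩
  have e6 : ∀ j l, N j l = N j k * (N i l / N i k) := fun j l => by
    field_simp; exact minors e4 i j k l
  have e7 : a = N - 1 := by rw [hN]; abel
  rw [e7, sub_mulVec, one_mulVec]
  congr 1
  ext j
  simp only [mulVec, dotProduct, Pi.smul_apply, smul_eq_mul, Finset.sum_mul]
  exact Finset.sum_congr rfl fun l _ => by rw [e6 j l]; ring

lemma mul_cols (X : Matrix (Fin 3) (Fin 3) F) (u v w : Fin 3 → F) :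
    X * (of ![u, v, w])ᵀ = (of ![X *ᵥ u, X *ᵥ v, X *ᵥ w])ᵀ := by
  ext j m; fin_cases m <;> simp [Matrix.mul_apply, mulVec, dotProduct]

lemma trace_of_inter {B : GL (Fin 3) F} {X Y : Matrix (Fin 3) (Fin 3) F} (h : X * B.1 = B.1 * Y) :
    X.trace = Y.trace := by
  have : X = B.1 * Y * (B⁻¹).1 := by rw [← h, mul_assoc, Units.mul_inv, mul_one]
  rw [this, trace_mul_comm, ← mul_assoc, Units.inv_mul, one_mul]

lemma closure_ind {G : Type*} [Group G] [Finite G] {s : Set G} {p : G → Prop}
    (mem : ∀ x ∈ s, p x) (one : p 1) (mul : ∀ x y, p x → p y → p (x * y)) {g : G}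
    (hg : g ∈ Subgroup.closure s) : p g := by
  have : g ∈ Submonoid.closure s := by
    rw [← Subgroup.closure_toSubmonoid_of_finite]; exact hg
  exact Submonoid.closure_induction (motive := fun g _ => p g) mem one
    (fun x y _ _ => mul x y) this

theorem normal_form (hI : Irr P) {a b : GL (Fin 3) F}
    (hgen : ∀ g ∈ P, g ∈ Subgroup.closure {a, b}) [Finite F] (ha : a ^ 2 = 1) (ht : trc a = -1)
    (h2 : (2 : F) ≠ 0) (hb : b ^ 3 = 1) :
    ∃ B : GL (Fin 3) F, a.1 * B.1 = B.1 * !![1, trc (a * b), trc (a * b * b); 0, -1, 0; 0, 0, -1] ∧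
      b.1 * B.1 = B.1 * !![0, 0, 1; 1, 0, 0; 0, 1, 0] := by
  obtain ⟨u, φ, hu, hφ⟩ := rank_one (a := a.1)
    (by rw [← Units.val_mul, ← pow_two, ha, Units.val_one]) ht h2
  set v := b.1 *ᵥ u with hv
  set w := b.1 *ᵥ v with hw
  have hw' : b.1 *ᵥ w = u := by
    rw [hw, hv, mulVec_mulVec, mulVec_mulVec, ← Units.val_mul, ← Units.val_mul,
      show b * b * b = b ^ 3 by simp [pow_succ], hb, Units.val_one, one_mulVec]
  set B : Matrix (Fin 3) (Fin 3) F := (of ![u, v, w])ᵀ with hB
  have eb : b.1 * B = B * !![0, 0, 1; 1, 0, 0; 0, 1, 0] := by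
    rw [hB, mul_cols, ← hv, ← hw, hw']
    ext j m; fin_cases m <;> simp [Matrix.mul_apply, Fin.sum_univ_three]
  have ea : a.1 * B = B * !![φ ⬝ᵥ u - 1, φ ⬝ᵥ v, φ ⬝ᵥ w; 0, -1, 0; 0, 0, -1] := by
    rw [hB, mul_cols, hφ, hφ, hφ]
    ext j m; fin_cases m <;> simp [Matrix.mul_apply, Fin.sum_univ_three] <;> ring
  have hW : LinearMap.range (toLin' B) = ⊤ := by
    refine (hI _ fun g hg => ?_).resolve_left fun h0 => hu ?_
    · refine closure_ind (p := fun g => ∀ x ∈ LinearMap.range (toLin' B),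
        g.1 *ᵥ x ∈ LinearMap.range (toLin' B)) ?_ ?_ ?_ (hgen g hg)
      · rintro g (rfl | rfl) _ ⟨x, rfl⟩
        · rw [toLin'_apply, mulVec_mulVec, ea, ← mulVec_mulVec]; exact ⟨_, rfl⟩
        · rw [toLin'_apply, mulVec_mulVec, eb, ← mulVec_mulVec]; exact ⟨_, rfl⟩
      · intro x hx; simpa using hx
      · intro g k hg hk x hx
        rw [Units.val_mul, ← mulVec_mulVec]; exact hg _ (hk x hx)
    · have : u ∈ LinearMap.range (toLin' B) := ⟨Pi.single 0 1, by
        ext j; simp [hB]⟩
      rw [h0] at this; exact this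
  have hU : IsUnit B := by
    rw [← Matrix.mulVec_surjective_iff_isUnit]
    exact fun y => LinearMap.range_eq_top.1 hW y
  obtain ⟨B', hB'⟩ := hU
  rw [← hB'] at ea eb
  have t1 := trace_of_inter ea
  have t2 : trc (a * b) = φ ⬝ᵥ v := by
    rw [trc, trace_of_inter (B := B') (Y := !![φ ⬝ᵥ u - 1, φ ⬝ᵥ v, φ ⬝ᵥ w; 0, -1, 0; 0, 0, -1] *
      !![0, 0, 1; 1, 0, 0; 0, 1, 0])
      (by rw [Units.val_mul, mul_assoc, eb, ← mul_assoc, ea, mul_assoc])]
    simp [trace_fin_three]
  have t3 : trc (a * b * b) = φ ⬝ᵥ w := by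
    rw [trc, trace_of_inter (B := B') (Y := !![φ ⬝ᵥ u - 1, φ ⬝ᵥ v, φ ⬝ᵥ w; 0, -1, 0; 0, 0, -1] *
      !![0, 0, 1; 1, 0, 0; 0, 1, 0] * !![0, 0, 1; 1, 0, 0; 0, 1, 0])
      (by rw [Units.val_mul, Units.val_mul, mul_assoc, eb, ← mul_assoc, mul_assoc a.1, eb,
        ← mul_assoc, ea, mul_assoc, mul_assoc, mul_assoc])]
    simp [trace_fin_three]
  have t4 : φ ⬝ᵥ u - 1 = 1 := by
    rw [trc] at ht
    rw [ht] at t1
    simp [trace_fin_three] at t1
    linear_combination t1
  exact ⟨B', by rw [ea, t2, t3, t4], eb⟩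

end Cfsg.Agent.MiR
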