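import Cfsg.Agent.MiR.V

/-! The fields of definition in the unitary case. -/

set_option autoImplicit false

namespace Cfsg.Agent.MiR

open Cfsg.Geo Matrix Cfsg.Agent.H18 Cfsg.Agent.H18.Mi
open scoped MatrixGroups

variable {F : Type*} [Field F] {H P : Subgroup (GL (Fin 3) F)}

lemma trc_of_form {σ : F →+* F} {ε : F} {f : (Fin 3 → F) → (Fin 3 → F) → F} (hf : HForm σ ε f)
    {g : GL (Fin 3) F} (hg : ∀ u v, f (g.1 *ᵥ u) (g.1 *ᵥ v) = f u v) : σ (trc g) = trc g⁻¹ := by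
  have := hf.adj_coe (g := g) (c := 1) fun u v => by rw [hg, one_mul]
  rw [trc, ← hf.trace_adj, this, map_one, one_smul, trc]

theorem uni_main [Fintype F] {q : ℕ} (hF : Fintype.card F = q ^ 2) (hq3 : 3 ≤ q)
    (hH : IsMaximalIn (GU 3 F q ⊓ specialLinear (Fin 3) F) H) (hc : IsResidualCore H P)
    (hb : NoBil P) (hM : MConcl P) :
    q.Prime ∧
    ((Nonempty (PQ P ≃* ProjectiveSpecialLinearGroup (Fin 3) (ZMod 2)) ∧ q ≠ 5 ∧
        (q % 7 = 3 ∨ q % 7 = 5 ∨ q % 7 = 6)) ∨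
     (Nonempty (PQ P ≃* alternatingGroup (Fin 6)) ∧ (q % 15 = 11 ∨ q % 15 = 14 ∨ q = 5)) ∨
     (Nonempty (PQ P ≃* alternatingGroup (Fin 7)) ∧ q = 5)) := by
  obtain ⟨p, hchar⟩ := CharP.exists F
  obtain ⟨n, hp, hn⟩ := FiniteField.card F p
  haveI : Fact p.Prime := ⟨hp⟩
  obtain ⟨d, -, hd⟩ := (Nat.dvd_prime_pow hp).1 (hn ▸ hF ▸ dvd_pow_self q two_ne_zero : q ∣ p ^ (n : ℕ))
  let σ := iterateFrobenius F p d
  have hq : ∀ x, σ x = x ^ q := fun x => by rw [hd]; rfl
  have hσ : ∀ x, σ (σ x) = x := fun x => by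
    rw [hq, hq, ← pow_mul, ← pow_two, ← hF, FiniteField.pow_card]
  have hf : HForm σ 1 (hermForm 3 F q) := by
    rw [herm_eq hq]; exact hform_frm hσ (by simp) (by simp) (by simp)
  have hP : Core P := Core.of_residual hc (hH.1.le.trans inf_le_right)
  have hs : NoSub P := hc.no_subfield
  have hR : ¬ ∀ g ∈ P, trc g⁻¹ = trc g := real_false hP hb
  have hGU : P ≤ GU 3 F q := hc.le.trans (hH.1.le.trans inf_le_left)
  have ht : ∀ g ∈ P, σ (trc g) = trc g⁻¹ := fun g hg => trc_of_form hf (hGU hg)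
  have hqp : (∀ g ∈ P, Upto P (fun x => Nice x ∨ Gold x ∨ Sev x) g) → q = p := fun h => by
    have h2 := hp.two_le
    rcases card_two' (p := p) hP hs h with h1 | h1
    · exfalso
      rw [hF, hd, ← pow_mul] at h1
      have : d * 2 = 1 := Nat.pow_right_injective h2 (h1.trans (pow_one p).symm)
      omega
    · exact Nat.pow_left_injective two_ne_zero (hF.symm.trans h1)
  rcases hM with h | ⟨F₀, h1, h2⟩ | ⟨τ, f, h1, h2, h3⟩ | h | ⟨⟨e⟩⟩ | ⟨⟨e⟩⟩ | ⟨h5, ⟨e⟩⟩
  · exact absurd (inf_le_right.trans (h.trans hc.le)) hH.1.not_ge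
  · exact absurd h2 (hs F₀ h1)
  · exfalso
    have hf' := hform_of_unitary h1
    have h4 : ∀ g ∈ P, ∀ u v, f (g.1 *ᵥ u) (g.1 *ᵥ v) = f u v := fun g hg => h2 _ ⟨g, hg, rfl⟩
    have h5 : (τ : F →+* F) = σ := RingHom.ext fun x => by
      have := fix_all hP hs ((τ : F →+* F).comp σ) (fun g hg => by
        rw [RingHom.comp_apply, ht g hg, trc_of_form hf' (h4 _ (inv_mem hg)), inv_inv]) (σ x)
      rwa [RingHom.comp_apply, hσ, eq_comm, eq_comm] at this
    rw [h5] at hf'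
    obtain ⟨c, hc'⟩ := hf.exists_eq_smul hf'.toSesq hP.span fun g hg =>
      ⟨1, fun u v => by rw [one_mul]; exact hGU hg u v, fun u v => by rw [one_mul, h4 g hg]⟩
    refine hH.1.not_ge fun g hg => hc.le (h3 g hg.2 fun u v => ?_)
    rw [hc', hc']
    exact congrArg _ (hg.1 u v)
  · exact absurd h hR
  · obtain ⟨π, hL⟩ := exists_lift hP.le (e.trans pslEquiv)
    have ha := fun g (hg : g ∈ P) => l32_all hL hP.perfect hg
    obtain rfl : q = p := hqp fun g hg =>
      ⟨1, one_mem _, g, hg, one_mem _, (one_mul g).symm, (ha g hg).imp id Or.inr⟩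
    refine ⟨hp, Or.inl ⟨⟨e⟩, ?_, ?_⟩⟩
    · rintro rfl
      exact l32_five hq hH hc hL
    · by_contra hn
      refine hR fun g hg => ?_
      rcases ha g hg with h | h
      · exact h.1
      by_cases h0 : q % 7 = 0
      · have h7 : (7 : F) = 0 := by exact_mod_cast cast_zero (F := F) (by norm_num : Nat.Prime 7) h0
        rw [h.2, sev_seven h.1 h7]; linear_combination -h7
      · rw [← ht g hg, hq, (sev_frob (p := q) h.1).1 (by omega)]
  · obtain ⟨π, hL⟩ := exists_lift hP.le e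
    obtain rfl : q = p := hqp fun g hg => (a6_upto hL hg).mono fun x h => h.imp id Or.inl
    refine ⟨hp, Or.inr (Or.inl ⟨⟨e⟩, ?_⟩)⟩
    have h3 : q % 3 = 2 := by
      by_contra hn
      refine hR fun g hg => ?_
      obtain ⟨η, x, hx, h3, hx', e1, e2⟩ := (a6_upto hL hg).spec hP.le
      by_cases h0 : q % 3 = 0
      · rw [e1, e2, cube_one h3 h0, ng_real hx']; simp
      · rw [← ht g hg, e1, map_mul, ht x hx, ng_real hx', hq, cube_pow h3, show q % 3 = 1 by omega,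
          pow_one]
    by_cases h5 : q = 5
    · exact Or.inr (Or.inr h5)
    rcases a6_gold hL with h | ⟨x, hx, h⟩
    · exact absurd (mod_of_cast (F := F) Nat.prime_five (by exact_mod_cast h)) h5
    have := gold_mod (p := q) h.2 (by rw [← hq, ht x hx, h.1]) h5
    omega
  · obtain ⟨π, hL⟩ := exists_lift hP.le e
    obtain rfl : q = p := hqp fun g hg => (a7_upto hL h5 hg).mono fun x h => h.imp id Or.inr
    exact ⟨hp, Or.inr (Or.inr ⟨⟨e⟩, mod_of_cast (F := F) Nat.prime_five (by exact_mod_cast h5)⟩)⟩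

end Cfsg.Agent.MiR
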