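import Cfsg.Agent.MiR.N
import Cfsg.Agent.MiR.K

/-! `L₃(2)` does not give a maximal subgroup of `SU₃(5)`. -/

set_option autoImplicit false

namespace Cfsg.Agent.MiR

open Cfsg.Geo Matrix Cfsg.Agent.H18 Cfsg.Agent.H18.Mi
open scoped MatrixGroups

variable {F : Type*} [Field F] {H P : Subgroup (GL (Fin 3) F)}

lemma herm_eq {σ : F →+* F} {q : ℕ} (hq : ∀ x, σ x = x ^ q) : hermForm 3 F q = frm σ 1 := by
  funext u v; simp [hermForm, frm, dotProduct, hq]

lemma mem_GU {σ : F →+* F} {q : ℕ} (hq : ∀ x, σ x = x ^ q) {g : GL (Fin 3) F} :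
    g ∈ GU 3 F q ↔ g.1ᵀ * g.1.map σ = 1 := by
  have : g ∈ GU 3 F q ↔ ∀ u v, frm σ 1 (g.1 *ᵥ u) (g.1 *ᵥ v) = frm σ 1 u v := by
    rw [← herm_eq hq]; rfl
  rw [this]
  simp only [frm_mulVec_mulVec, Matrix.mul_one]
  exact ⟨frm_inj, fun h u v => by rw [h]⟩

lemma trc_invol {a : GL (Fin 3) F} (ha : a ∈ specialLinear (Fin 3) F) (h2 : a ^ 2 = 1) (h1 : a ≠ 1) :
    trc a = -1 := by
  have e := ch ha
  have e2 : a.1 * a.1 = 1 := by rw [← Units.val_mul, ← pow_two, h2, Units.val_one]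
  rw [inv_eq_pow h2, pow_one, e2, one_mul] at e
  have : (trc a + 1) • (a.1 - 1) = 0 := by
    rw [add_smul, smul_sub, one_smul]
    linear_combination (norm := abel1) e
  rcases smul_eq_zero.1 this with h | h
  · linear_combination h
  · exact absurd (Units.ext (sub_eq_zero.1 h)) h1

lemma sev_of_five {g h : GL (Fin 3) F} (h5 : (5 : F) = 0) (hg : g ∈ specialLinear (Fin 3) F)
    (h7 : g ^ 7 = 1) (h1 : g ≠ 1) (hc : h * g * h⁻¹ = g ^ 2) : Sev g := by
  rcases seven hg hc with ⟨h2, -⟩ | h2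
  swap
  · exact h2
  exfalso
  have e1 : trc g = trc g ^ 2 - 2 * trc g⁻¹ := by rw [← trc_sq hg, ← hc, trc_conj]
  rw [h2] at e1
  have e := ch hg
  have : trc g * (trc g - 3) = 0 := by linear_combination -e1
  rcases mul_eq_zero.1 this with h0 | h0
  · rw [h2, h0, zero_smul, zero_smul, sub_zero, zero_add] at e
    have h3 : g ^ 3 = 1 := Units.ext (by simpa [pow_succ] using e)
    refine h1 ?_
    calc g = g ^ 7 * ((g ^ 3) ^ 2)⁻¹ := by group
      _ = 1 := by rw [h7, h3]; simp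
  · rw [h2, sub_eq_zero.1 h0] at e
    have a4 : g.1 * g.1 * g.1 * g.1 = (6 : F) • (g.1 * g.1) - (8 : F) • g.1 + (3 : F) • 1 := by
      rw [e, add_mul, sub_mul, smul_mul_assoc, smul_mul_assoc, e, one_mul]; module
    have a5 : g.1 * g.1 * g.1 * g.1 * g.1 = 1 := by
      rw [a4, add_mul, sub_mul, smul_mul_assoc, smul_mul_assoc, smul_mul_assoc, e, one_mul]
      have : (6 : F) • ((3 : F) • (g.1 * g.1) - (3 : F) • g.1 + 1) - (8 : F) • (g.1 * g.1) +
          (3 : F) • g.1 = 1 + (5 : F) • ((2 : F) • (g.1 * g.1) - (3 : F) • g.1 + 1) := by module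
      rw [this, h5, zero_smul, add_zero]
    have h3 : g ^ 5 = 1 := Units.ext (by simpa [pow_succ] using a5)
    refine h1 ?_
    calc g = (g ^ 5) ^ 3 * ((g ^ 7) ^ 2)⁻¹ := by group
      _ = 1 := by rw [h7, h3]; simp

lemma gen_P [Finite F] {π : P →* SL(3, ZMod 2)} (hL : Lift P π) (hP : Core P) {a b : P}
    (ha : π a = sa) (hb : π b = sb) : ∀ g ∈ P, g ∈ Subgroup.closure {a.1, b.1} := by
  have hi := l32_inj hL hP.perfect
  let e : P ≃* SL(3, ZMod 2) := MulEquiv.ofBijective π ⟨hi, hL.surj⟩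
  haveI := hP.simple
  have hk : (scalars (Fin 3) F).subgroupOf P = ⊥ := eq_bot_iff.2 fun x hx =>
    hi (by rw [(hL.ker x).2 hx, map_one])
  haveI : IsSimpleGroup SL(3, ZMod 2) :=
    (((QuotientGroup.quotientMulEquivOfEq hk).trans QuotientGroup.quotientBot).trans
      e).symm.isSimpleGroup
  intro g hg
  have : π ⟨g, hg⟩ ∈ Subgroup.closure {sa, sb} := gen_S ▸ Subgroup.mem_top _
  have key : ∀ y ∈ Subgroup.closure {sa, sb}, (e.symm y).1 ∈ Subgroup.closure {a.1, b.1} := by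
    intro y hy
    refine closure_ind (p := fun y => (e.symm y).1 ∈ Subgroup.closure {a.1, b.1}) ?_ ?_ ?_ hy
    · rintro y (rfl | rfl)
      · rw [← ha, show π a = e a from rfl, e.symm_apply_apply]
        exact Subgroup.subset_closure (by simp)
      · rw [← hb, show π b = e b from rfl, e.symm_apply_apply]
        exact Subgroup.subset_closure (by simp)
    · simp
    · intro x y hx hy
      rw [map_mul]; exact mul_mem hx hy
  have := key _ this
  rwa [show π ⟨g, hg⟩ = e ⟨g, hg⟩ from rfl, e.symm_apply_apply] at this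

lemma trc_abb {a b : GL (Fin 3) F} (ha : a ^ 2 = 1) (hb : b ^ 3 = 1) :
    trc (a * b * b) = trc (a * b)⁻¹ := by
  rw [← trc_conj a (a * b)⁻¹, _root_.mul_inv_rev, inv_eq_pow hb]
  congr 1
  rw [pow_two]
  calc a * b * b = a * (b * b) * (a ^ 2)⁻¹ := by rw [ha]; group
    _ = _ := by group

lemma norm_le [Finite F] {π : P →* SL(3, ZMod 2)} (hL : Lift P π) (hP : Core P)
    (hc : IsResidualCore H P) {a b : P} (ha : π a = sa) (hb : π b = sb)
    (hne : trc (a.1 * b.1)⁻¹ ≠ trc (a.1 * b.1)) {h : GL (Fin 3) F} (hh : h ∈ H) :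
    ∃ x ∈ P, ∃ z ∈ scalars (Fin 3) F, h = x * z := by
  have hi := l32_inj hL hP.perfect
  have a2 : a ^ 2 = 1 := hi (by rw [map_pow, ha, sa2, map_one])
  have b3 : b ^ 3 = 1 := hi (by rw [map_pow, hb, sb3, map_one])
  have ab7 : (a * b) ^ 7 = 1 := hi (by rw [map_pow, map_mul, ha, hb, sab7, map_one])
  have a2' : a.1 ^ 2 = 1 := congrArg Subtype.val a2
  have b3' : b.1 ^ 3 = 1 := congrArg Subtype.val b3
  have ab7' : (a.1 * b.1) ^ 7 = 1 := congrArg Subtype.val ab7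
  let b' : P := ⟨h * b * h⁻¹, hc.normal h hh _ b.2⟩
  obtain ⟨y, hy⟩ := l32_R1 (π b') (by
      rw [← map_pow, show b' ^ 3 = 1 from Subtype.ext (by
        show (h * b * h⁻¹) ^ 3 = 1
        rw [conj_pow, b3']; simp), map_one]) (fun h0 => sb1 (by
      have h1 : h * b * h⁻¹ = 1 := congrArg Subtype.val (hi (h0.trans (map_one π).symm))
      rw [← hb, show b = 1 from Subtype.ext (by simpa using h1), map_one]))
  obtain ⟨x₁, rfl⟩ := hL.surj y
  have e1 : x₁.1 * b.1 * x₁.1⁻¹ = h * b * h⁻¹ :=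
    congrArg Subtype.val (hi (a₁ := x₁ * b * x₁⁻¹) (a₂ := b') (by simp [hb, hy]))
  set k := x₁.1⁻¹ * h with hk
  have hkH : k ∈ H := mul_mem (inv_mem (hc.le x₁.2)) hh
  have kb : k * b * k⁻¹ = b := by
    calc k * b * k⁻¹ = x₁.1⁻¹ * (h * b * h⁻¹) * x₁.1 := by rw [hk]; group
      _ = b := by rw [← e1]; group
  let a' : P := ⟨k * a * k⁻¹, hc.normal k hkH _ a.2⟩
  have kab : (a' * b).1 = k * (a * b) * k⁻¹ := by
    show k * a * k⁻¹ * b = _
    conv_lhs => rw [← kb]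
    group
  obtain ⟨y, hy1, hy2⟩ := l32_R2 (π a') (by
      rw [← map_pow, show a' ^ 2 = 1 from Subtype.ext (by
        show (k * a * k⁻¹) ^ 2 = 1
        rw [conj_pow, a2']; simp), map_one]) (by
      rw [← hb, ← map_mul, ← map_pow, show (a' * b) ^ 7 = 1 from Subtype.ext (by
        rw [Subgroup.coe_pow, kab, conj_pow, ab7']; simp), map_one])
  obtain ⟨x₂, rfl⟩ := hL.surj y
  have e2 : x₂.1 * a.1 * x₂.1⁻¹ = k * a * k⁻¹ :=
    congrArg Subtype.val (hi (a₁ := x₂ * a * x₂⁻¹) (a₂ := a') (by simp [ha, hy1]))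
  rcases hy2 with hy2 | hy2
  · have e3 : x₂.1 * b.1 * x₂.1⁻¹ = b :=
      congrArg Subtype.val (hi (a₁ := x₂ * b * x₂⁻¹) (a₂ := b) (by simp [hb, hy2]))
    refine ⟨x₁.1 * x₂.1, mul_mem x₁.2 x₂.2, x₂.1⁻¹ * k, ?_, by rw [hk]; group⟩
    refine hc.centralizer_scalar _ (mul_mem (inv_mem (hc.le x₂.2)) hkH) fun g hg => ?_
    have : x₂.1⁻¹ * k * g * (x₂.1⁻¹ * k)⁻¹ = g := by
      refine closure_ind (p := fun g => x₂.1⁻¹ * k * g * (x₂.1⁻¹ * k)⁻¹ = g) ?_ ?_ ?_
        (gen_P hL hP ha hb g hg)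
      · rintro y (rfl | rfl)
        · calc _ = x₂.1⁻¹ * (k * a * k⁻¹) * x₂.1 := by group
            _ = _ := by rw [← e2]; group
        · calc _ = x₂.1⁻¹ * (k * b * k⁻¹) * x₂.1 := by group
            _ = _ := by rw [kb]; conv_lhs => rw [← e3]
                        group
      · group
      · intro x y hx hy
        conv_rhs => rw [← hx, ← hy]
        group
    rw [this, mul_inv_cancel]; exact one_mem _
  · exfalso
    have e3 : x₂.1 * b.1⁻¹ * x₂.1⁻¹ = b :=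
      congrArg Subtype.val (hi (a₁ := x₂ * b⁻¹ * x₂⁻¹) (a₂ := b) (by simp [hb, hy2]))
    refine hne ?_
    rw [← trc_abb a2' b3', ← trc_conj x₂.1, ← trc_conj k (a.1 * b.1), ← kab]
    congr 1
    show _ = k * a * k⁻¹ * b
    rw [← e2]
    conv_rhs => rw [← e3, inv_eq_pow b3', pow_two]
    group

lemma exists_psi [CharP F 5] {α : F} (h : α ^ 2 + α + 2 = 0) {σ : F →+* F} (hσ : σ α = -1 - α) :
    ∃ ψ : K25 →+* F, (∀ z, ψ z = 0 → z = 0) ∧ (∀ z, σ (ψ z) = ψ (star z)) ∧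
      ka.map ψ = !![1, α, -1 - α; 0, -1, 0; 0, 0, -1] ∧ kb.map ψ = !![0, 0, 1; 1, 0, 0; 0, 1, 0] ∧
      kG.map ψ = !![2, -1 - α, α; α, 2, -1 - α; -1 - α, α, 2] := by
  have h5 : (5 : F) = 0 := by exact_mod_cast CharP.cast_eq_zero F 5
  letI : Algebra (ZMod 5) F := ZMod.algebra F 5
  let c := algebraMap (ZMod 5) F
  let ψ : K25 →ₐ[ZMod 5] F := QuadraticAlgebra.lift ⟨α, by
    simp only [Algebra.smul_def, map_ofNat, mul_one]
    linear_combination h - (1 + α) * h5⟩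
  have hψ : ∀ x y, ψ ⟨x, y⟩ = c x + c y * α := fun x y => by
    simp [ψ, c, Algebra.smul_def]
  have k0 : ψ ⟨0, 0⟩ = 0 := by simp [hψ]
  have k1 : ψ ⟨1, 0⟩ = 1 := by simp [hψ]
  have k2 : ψ ⟨2, 0⟩ = 2 := by simp [hψ, map_ofNat]
  have k3 : ψ ⟨0, 1⟩ = α := by simp [hψ]
  have k4 : ψ ⟨4, 0⟩ = -1 := by
    simp only [hψ, map_ofNat, map_zero]; linear_combination h5
  have k5 : ψ ⟨4, 4⟩ = -1 - α := by
    simp only [hψ, map_ofNat]; linear_combination (1 + α) * h5
  refine ⟨ψ.toRingHom, ?_, ?_, ?_, ?_, ?_⟩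
  · rintro ⟨x, y⟩ hz
    by_contra hn
    obtain ⟨z, w, e⟩ := K25_inv x y hn
    have := congrArg ψ.toRingHom e
    rw [map_mul, hz, zero_mul, map_one] at this
    exact zero_ne_one this
  · rintro ⟨x, y⟩
    have hc : ∀ t, σ (c t) = c t := fun t => RingHom.congr_fun (RingHom.ext_zmod (σ.comp c) c) t
    show σ (ψ ⟨x, y⟩) = ψ (star ⟨x, y⟩)
    rw [QuadraticAlgebra.star_mk, hψ, hψ, map_add, map_mul, hc, hc, hσ, map_add, map_mul, map_neg,
      map_ofNat]
    linear_combination -(c y) * h5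
  · ext i j; fin_cases i <;> fin_cases j <;> simp [ka, k0, k1, k3, k4, k5]
  · ext i j; fin_cases i <;> fin_cases j <;> simp [kb, k0, k1]
  · ext i j; fin_cases i <;> fin_cases j <;> simp [kG, k2, k3, k5]

lemma gram_eq {σ : F →+* F} {G : Matrix (Fin 3) (Fin 3) F} {x y : F} (h5 : (5 : F) = 0)
    (ha : (!![1, x, y; 0, -1, 0; 0, 0, -1])ᵀ * G * (!![1, x, y; 0, -1, 0; 0, 0, -1]).map σ = G)
    (hb : (!![0, 0, 1; 1, 0, 0; 0, 1, 0])ᵀ * G * (!![0, 0, 1; 1, 0, 0; 0, 1, 0]).map σ = G) :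
    G = (3 * G 0 0) • !![2, y, x; x, 2, y; y, x, 2] := by
  have a1 := congrFun (congrFun ha 1) 0
  have a2 := congrFun (congrFun ha 2) 0
  have b := fun i j => congrFun (congrFun hb i) j
  have b00 := b 0 0; have b01 := b 0 1; have b02 := b 0 2
  have b10 := b 1 0; have b11 := b 1 1; have b12 := b 1 2
  simp [Matrix.mul_apply, Fin.sum_univ_three] at a1 a2 b00 b01 b02 b10 b11 b12
  ext i j; fin_cases i <;> fin_cases j <;> simp
  · linear_combination (-G 0 0) * h5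
  · linear_combination -3 * a2 - b01 - b12 - (G 2 0) * h5
  · linear_combination -3 * a1 - b02 - (G 1 0) * h5
  · linear_combination -3 * a1 - (G 1 0) * h5
  · linear_combination (-G 0 0) * h5 + b00
  · linear_combination -3 * a2 - b12 - (G 2 0) * h5
  · linear_combination -3 * a2 - (G 2 0) * h5
  · linear_combination -3 * a1 + b10 - (G 1 0) * h5
  · linear_combination (-G 0 0) * h5 + b00 + b11

theorem l32_five [Fintype F] [CharP F 5] {σ : F →+* F} (hq : ∀ x, σ x = x ^ 5)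
    (hH : IsMaximalIn (GU 3 F 5 ⊓ specialLinear (Fin 3) F) H) (hc : IsResidualCore H P)
    {π : P →* SL(3, ZMod 2)} (hL : Lift P π) : False := by
  have h5 : (5 : F) = 0 := by exact_mod_cast CharP.cast_eq_zero F 5
  have h2 : (2 : F) ≠ 0 := fun h => one_ne_zero (by linear_combination h5 - 2 * h : (1 : F) = 0)
  haveI : Fact (Nat.Prime 5) := ⟨Nat.prime_five⟩
  have hP : Core P := Core.of_residual hc (hH.1.le.trans inf_le_right)
  have hi := l32_inj hL hP.perfect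
  obtain ⟨a, ha⟩ := hL.surj sa
  obtain ⟨b, hb⟩ := hL.surj sb
  have a2 : a.1 ^ 2 = 1 :=
    congrArg Subtype.val (hi (by rw [map_pow, ha, sa2, map_one]) : a ^ 2 = 1)
  have b3 : b.1 ^ 3 = 1 :=
    congrArg Subtype.val (hi (by rw [map_pow, hb, sb3, map_one]) : b ^ 3 = 1)
  have ab7 : (a.1 * b.1) ^ 7 = 1 :=
    congrArg Subtype.val (hi (by rw [map_pow, map_mul, ha, hb, sab7, map_one]) : (a * b) ^ 7 = 1)
  have hS : Sev (a.1 * b.1) := by
    have : IsConj (sa * sb) ((sa * sb) ^ 2) := by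
      rcases l32_facts (sa * sb) with ⟨-, h | h⟩ | h
      · exact absurd (congrArg Subtype.val h) (by decide)
      · exact absurd (congrArg Subtype.val h) (by decide)
      · exact h.2
    obtain ⟨y, hy⟩ := isConj_iff.1 this
    obtain ⟨k, rfl⟩ := hL.surj y
    refine sev_of_five (h := k.1) h5 (hP.le (a * b).2) ab7 (fun h => sab1 ?_)
      (congrArg Subtype.val (hi (a₁ := k * (a * b) * k⁻¹) (a₂ := (a * b) ^ 2)
        (by simp only [map_mul, map_pow, map_inv, ha, hb, hy])))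
    rw [← ha, ← hb, ← map_mul, show a * b = 1 from Subtype.ext h, map_one]
  set α := trc (a.1 * b.1) with hα
  obtain ⟨B, ea, eb⟩ := normal_form hP.irr (gen_P hL hP ha hb) a2
    (trc_invol (hP.le a.2) a2 fun h => sa1 (by rw [← ha, show a = 1 from Subtype.ext h, map_one]))
    h2 b3
  rw [trc_abb a2 b3, hS.2, ← hα] at ea
  obtain ⟨ψ, hinj, hst, e1, e2, e3⟩ := exists_psi hS.1 (σ := σ)
    (by rw [hq, (sev_frob (p := 5) hS.1).2 (by omega)])
  have hGU : P ≤ GU 3 F 5 := hc.le.trans (hH.1.le.trans inf_le_left)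
  set G := B.1ᵀ * B.1.map σ with hG
  have key : ∀ {g : GL (Fin 3) F} {Y : Matrix (Fin 3) (Fin 3) F}, g.1 * B.1 = B.1 * Y →
      Yᵀ * G * Y.map σ = B.1ᵀ * (g.1ᵀ * g.1.map σ) * B.1.map σ := fun {g Y} h => by
    calc Yᵀ * G * Y.map σ = (B.1 * Y)ᵀ * (B.1 * Y).map σ := by
          rw [hG, transpose_mul, Matrix.map_mul]; simp only [mul_assoc]
      _ = _ := by rw [← h, transpose_mul, Matrix.map_mul]; simp only [mul_assoc]
  have hG' := gram_eq (σ := σ) (G := G) h5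
    (by rw [key ea, (mem_GU hq).1 (hGU a.2), mul_one])
    (by rw [key eb, (mem_GU hq).1 (hGU b.2), mul_one])
  rw [← e3] at hG'
  have mk : ∀ Y : Matrix (Fin 3) (Fin 3) K25, Yᵀ * kG * Y.map star = kG → Y.det = 1 →
      ∃ g ∈ GU 3 F 5 ⊓ specialLinear (Fin 3) F, g.1 * B.1 = B.1 * Y.map ψ := fun Y hY hd => by
    have hd' : (Y.map ψ).det = 1 := by
      rw [← RingHom.mapMatrix_apply, ← RingHom.map_det, hd, map_one]
    let y : GL (Fin 3) F := GeneralLinearGroup.mkOfDetNeZero (Y.map ψ) (by rw [hd']; exact one_ne_zero)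
    have hy : (B * y * B⁻¹).1 * B.1 = B.1 * Y.map ψ := by
      rw [← Units.val_mul, inv_mul_cancel_right]; rfl
    refine ⟨B * y * B⁻¹, ⟨(mem_GU hq).2 ?_, ?_⟩, hy⟩
    · have k1 := key hy
      have k2 : (Y.map ψ)ᵀ * kG.map ψ * (Y.map ψ).map σ = kG.map ψ := by
        conv_rhs => rw [← hY]
        rw [Matrix.map_mul, Matrix.map_mul, transpose_map]
        congr 1
        ext i j; exact hst _
      rw [hG', mul_smul_comm, smul_mul_assoc, k2, ← hG', hG] at k1
      have u1 : IsUnit B.1ᵀ := (isUnit_transpose _).2 B.isUnit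
      have u2 : IsUnit (B.1.map σ) := B.isUnit.map σ.mapMatrix
      refine (u1.mul_left_cancel (u2.mul_right_cancel ?_))
      rw [← k1, mul_one]
    · exact (MonoidHom.normal_ker _).conj_mem y (mem_of_det hd') B
  let St : GL (Fin 3) F → Prop := fun g => ∀ n ∈ Lc, ∃ m ∈ Lc, ∃ c : F,
    g.1 *ᵥ (B.1 *ᵥ (ψ ∘ vec n)) = c • (B.1 *ᵥ (ψ ∘ vec m))
  have mv : ∀ (Y : Matrix (Fin 3) (Fin 3) K25) (v : Fin 3 → K25),
      Y.map ψ *ᵥ (ψ ∘ v) = ψ ∘ (Y *ᵥ v) := fun Y v => funext fun i => (ψ.map_mulVec Y v i).symm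
  have st1 : St 1 := fun n hn => ⟨n, hn, 1, by simp⟩
  have stm : ∀ x y, St x → St y → St (x * y) := fun x y hx hy n hn => by
    obtain ⟨m, hm, c, e⟩ := hy n hn
    obtain ⟨l, hl, d, e'⟩ := hx m hm
    exact ⟨l, hl, c * d, by rw [Units.val_mul, ← mulVec_mulVec, e, mulVec_smul, e', smul_smul]⟩
  have stk : ∀ {g : GL (Fin 3) F} {Y : Matrix (Fin 3) (Fin 3) K25}, g.1 * B.1 = B.1 * Y.map ψ →
      Stab Y → St g := fun {g Y} h hY n hn => by
    obtain ⟨m, hm, c, e⟩ := hY n hn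
    refine ⟨m, hm, ψ c, ?_⟩
    rw [mulVec_mulVec, h, ← mulVec_mulVec, mv, e, ← mulVec_smul]
    congr 1
    ext i; simp
  have stP : ∀ g ∈ P, St g := fun g hg => by
    refine closure_ind (p := St) ?_ st1 stm (gen_P hL hP ha hb g hg)
    rintro y (rfl | rfl)
    · exact stk (by rw [e1, ea]) stab_a
    · exact stk (by rw [e2, eb]) stab_b
  have hle := fun h (hh : h ∈ H) => norm_le hL hP hc ha hb (fun e => by
    rw [hS.2] at e
    exact h2 (by linear_combination 4 * hS.1 + (2 * α + 1) * e - h5)) hh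
  let M := Subgroup.closure {g | g ∈ GU 3 F 5 ⊓ specialLinear (Fin 3) F ∧ St g}
  have stM : ∀ g ∈ M, St g := fun g hg => closure_ind (p := St) (fun x hx => hx.2) st1 stm hg
  rcases hH.2 M (fun h hh => Subgroup.subset_closure ⟨hH.1.le hh, by
      obtain ⟨x, hx, z, hz, rfl⟩ := hle h hh
      obtain ⟨c, hc⟩ := (mem_scalars_iff z).1 hz
      exact stm _ _ (stP x hx) fun n hn => ⟨n, hn, c, by rw [hc, smul_mulVec, one_mulVec]⟩⟩)
    ((Subgroup.closure_le _).2 fun g hg => hg.1) with hM | hM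
  · obtain ⟨g, hg, e⟩ := mk kc kc_form kc_det
    have hgH : g ∈ H := hM ▸ Subgroup.subset_closure ⟨hg, stk e stab_c⟩
    obtain ⟨x, hx, z, hz, hxz⟩ := hle g hgH
    have g5 : g ^ 5 = 1 := by
      have : ∀ n : ℕ, (g ^ n).1 * B.1 = B.1 * (kc ^ n).map ψ := fun n => by
        induction n with
        | zero => simp
        | succ n ih => rw [pow_succ', Units.val_mul, mul_assoc, ih, ← mul_assoc, e, pow_succ',
            Matrix.map_mul, mul_assoc]
      have h1 := this 5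
      rw [kc_pow, Matrix.map_one _ (map_zero ψ) (map_one ψ), mul_one] at h1
      exact Units.ext (B.isUnit.mul_right_cancel (by rw [h1]; simp))
    have z3 : z ^ 3 = 1 := scalar_cube hz (by
      have : z = x⁻¹ * g := by rw [hxz]; group
      rw [this]; exact mul_mem (inv_mem (hP.le hx)) hg.2)
    have x168 : x ^ 168 = 1 := by
      have c1 : Nat.card P = 168 := (Nat.card_eq_of_bijective π ⟨hi, hL.surj⟩).trans card_S
      exact congrArg Subtype.val (c1 ▸ pow_card_eq_one' (x := (⟨x, hx⟩ : P)))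
    have g168 : g ^ 168 = 1 := by
      rw [hxz, (show Commute x z from (scalar_comm hz x).symm).mul_pow, x168,
        show 168 = 3 * 56 from rfl, pow_mul, z3]; simp
    have g1 : g = 1 := by
      calc g = (g ^ 168) ^ 2 * ((g ^ 5) ^ 67)⁻¹ := by group
        _ = 1 := by rw [g168, g5]; simp
    rw [g1, Units.val_one, one_mul] at e
    have : kc.map ψ = 1 := (B.isUnit.mul_left_cancel (by rw [← e, mul_one])).symm
    exact kc_ne (hinj _ (by simpa using congrFun (congrFun this 0) 1))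
  · obtain ⟨g, hg, e⟩ := mk kd kd_form kd_det
    obtain ⟨m, hm, c, e'⟩ := stM g (hM ▸ hg) 1 one_mem_Lc
    rw [mulVec_mulVec, e, ← mulVec_mulVec, mv, ← mulVec_smul] at e'
    have e'' := (Matrix.mulVec_injective_iff_isUnit.2 B.isUnit) e'
    have t : ∀ i j, (kd *ᵥ vec 1) i * vec m j = (kd *ᵥ vec 1) j * vec m i := fun i j => by
      refine sub_eq_zero.1 (hinj _ ?_)
      have ti := congrFun e'' i
      have tj := congrFun e'' j
      simp only [Function.comp_apply, Pi.smul_apply, smul_eq_mul] at ti tj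
      rw [map_sub, map_mul, map_mul, ti, tj]; ring
    exact not_par m hm ⟨t 0 1, t 0 2, t 1 2⟩

end Cfsg.Agent.MiR
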